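import Cfsg.Agent.H8.U62.Group

/-!
# The hermitian space attached to a quadratic function with a fixed point free map of order three
-/

set_option autoImplicit false
set_option linter.unusedSectionVars false

namespace Cfsg.Agent.H66.JFour

open Matrix Cfsg.Agent.H8.U62 Cfsg.Agent.H8.U62.Setup

theorem exists_om {F : Type} [Field F] [Fintype F] (hF : Fintype.card F = 4) :
    ∃ om : F, om * om = om + 1 ∧ (1 : F) + 1 = 0 := by
  classical
  have h4 : ((Fintype.card F : ℕ) : F) = 0 := Nat.cast_card_eq_zero F
  rw [hF] at h4
  have h2 : (1 : F) + 1 = 0 := by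
    have h' : ((1 : F) + 1) * (1 + 1) = 0 := by
      rw [← h4]; norm_num
    rcases mul_eq_zero.1 h' with h | h <;> exact h
  obtain ⟨u, hu⟩ : ∃ u : F, u ∉ ({0, 1} : Finset F) := by
    by_contra h
    push Not at h
    have := Finset.card_le_card (fun x _ => h x : (Finset.univ : Finset F) ⊆ {0, 1})
    rw [Finset.card_univ, hF] at this
    have h' : ({0, 1} : Finset F).card ≤ 2 := Finset.card_le_two
    omega
  simp only [Finset.mem_insert, Finset.mem_singleton, not_or] at hu
  refine ⟨u, ?_, h2⟩
  have h3 : u ^ 3 = 1 := by
    have := FiniteField.pow_card_sub_one_eq_one u hu.1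
    rwa [hF] at this
  have h5 : (u - 1) * (u * u + u + 1) = 0 := by linear_combination h3
  rcases mul_eq_zero.1 h5 with h | h
  · exact absurd (sub_eq_zero.1 h) hu.2
  · linear_combination h - (u + 1) * h2

/-- The field with four elements. -/
noncomputable instance setupFour : Setup (GaloisField 2 2) :=
  letI : Fintype (GaloisField 2 2) := Fintype.ofFinite _
  have hF : Fintype.card (GaloisField 2 2) = 4 := by
    rw [← Nat.card_eq_fintype_card, GaloisField.card 2 2 (by norm_num)]; norm_num
  { (inferInstance : Field (GaloisField 2 2)) with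
    om := (exists_om hF).choose
    hom := (exists_om hF).choose_spec.1
    two := (exists_om hF).choose_spec.2
    fin := inferInstance
    card := hF }

variable {F : Type} [Setup F]

theorem charP_two : CharP F 2 := by
  have h : ringChar F = 2 := CharP.ringChar_of_prime_eq_zero Nat.prime_two
    (by push_cast; linear_combination two (F := F))
  exact h ▸ ringChar.charP F

theorem ne_zero_cases {c : F} (h : c ≠ 0) : c = 1 ∨ c = om ∨ c = om * om := by
  obtain ⟨a, b, rfl⟩ := exists_fe c
  cases a <;> cases b <;> simp [fe, bF, hom, add_comm] at h ⊢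

theorem cube_eq_one {c : F} (h : c ≠ 0) : c * c * c = 1 := by
  have h1 := hom (F := F)
  have h2 := two (F := F)
  rcases ne_zero_cases h with rfl | rfl | rfl
  · ring
  · linear_combination (om + 1) * h1 + om * h2
  · linear_combination (om * om * om + 1) * ((om + 1) * h1 + om * h2)

/-- The module. -/
abbrev W12 : Type := Fin 12 → ZMod 2

/-- A quadratic function with an automorphism of order three without fixed vectors. -/
structure Turn where
  /-- The quadratic function. -/
  q : W12 → ZMod 2
  /-- The automorphism. -/
  w : W12 →+ W12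
  q_zero : q 0 = 0
  add_left : ∀ u u' v, q (u + u' + v) + q (u + u') + q v =
    (q (u + v) + q u + q v) + (q (u' + v) + q u' + q v)
  nondeg : ∀ u, (∀ v, q (u + v) + q u + q v = 0) → u = 0
  q_w : ∀ u, q (w u) = q u
  rel : ∀ u, w (w u) + w u + u = 0

namespace Turn

variable (T : Turn)

/-- The polar form. -/
def B (u v : W12) : ZMod 2 := T.q (u + v) + T.q u + T.q v

theorem B_add_left (u u' v : W12) : T.B (u + u') v = T.B u v + T.B u' v := T.add_left u u' v

theorem B_symm (u v : W12) : T.B u v = T.B v u := by simp only [B, add_comm u v]; ring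

theorem B_w (u v : W12) : T.B (T.w u) (T.w v) = T.B u v := by simp only [B, ← map_add, T.q_w]

theorem two_self (u : W12) : u + u = 0 := funext fun i => CharTwo.add_self_eq_zero (u i)

theorem w_sq (u : W12) : T.w (T.w u) = T.w u + u := by
  have h := T.rel u
  calc T.w (T.w u) = T.w (T.w u) + ((T.w u + T.w u) + (u + u)) := by rw [two_self, two_self]; simp
    _ = (T.w (T.w u) + T.w u + u) + (T.w u + u) := by abel
    _ = _ := by rw [h, zero_add]

theorem w_cube (u : W12) : T.w (T.w (T.w u)) = u := by
  rw [T.w_sq u, map_add, T.w_sq u]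
  calc T.w u + u + T.w u = u + (T.w u + T.w u) := by abel
    _ = u := by rw [two_self, add_zero]

/-- The prime field inside `F`. -/
noncomputable def cst : ZMod 2 →+* F :=
  haveI := charP_two (F := F)
  ZMod.castHom (dvd_refl 2) F

theorem cst_sq (a : ZMod 2) : (cst a : F) ^ 2 = cst a := by
  have h2 : ∀ x : ZMod 2, x ^ 2 = x := by decide
  rw [← map_pow, h2]

/-- The hermitian form. -/
noncomputable def h (u v : W12) : F := cst (T.B (T.w (T.w u)) v) + om * cst (T.B u v)

theorem h_add (u u' v : W12) : T.h (F := F) (u + u') v = T.h u v + T.h u' v := by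
  simp only [h, map_add, B_add_left]; ring

theorem h_zero (v : W12) : T.h (F := F) 0 v = 0 := by
  have := T.h_add (F := F) 0 0 v
  rw [add_zero] at this
  linear_combination -this

theorem h_w (u v : W12) : T.h (F := F) (T.w u) v = om * T.h u v := by
  simp only [h, T.w_cube]
  conv_rhs => rw [T.w_sq u, B_add_left, map_add]
  linear_combination -(cst (T.B u v) : F) * hom (F := F) - (cst (T.B u v) : F) * om * two (F := F)

theorem h_symm (u v : W12) : T.h (F := F) v u = T.h u v ^ 2 := by
  have := charP_two (F := F)
  have e : T.B (T.w (T.w v)) u = T.B (T.w u) v := by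
    rw [← T.B_w (T.w (T.w v)) u, T.w_cube, T.B_symm]
  simp only [h, add_pow_char, mul_pow, cst_sq, e, T.B_symm v u]
  rw [T.w_sq u, B_add_left, map_add]
  linear_combination -(cst (T.B u v) : F) * hom (F := F) - (cst (T.B u v) : F) * two (F := F)

theorem h_self (u : W12) : T.h (F := F) u u = cst (T.q u) := by
  have e1 : T.B u u = 0 := by
    simp only [B, two_self, T.q_zero, zero_add]
    exact CharTwo.add_self_eq_zero _
  have e2 : T.B (T.w (T.w u)) u = T.q u := by
    simp only [B]
    rw [T.q_w, T.q_w, T.w_sq, add_assoc (T.w u), two_self, add_zero, T.q_w, add_assoc, CharTwo.add_self_eq_zero,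
      add_zero]
  simp [h, e1, e2]

theorem pow_four (a : F) : (a ^ 2) ^ 2 = a := by
  rw [← pow_mul]
  have := FiniteField.pow_card a
  rwa [Setup.card] at this

theorem h_conj (u v : W12) : T.h (F := F) u v = T.h v u ^ 2 := by
  rw [T.h_symm u v, pow_four]

/-- A combination of a vector and its image. -/
def smB (a b : Bool) (u : W12) : W12 := (bif a then u else 0) + (bif b then T.w u else 0)

theorem h_smB (a b : Bool) (u v : W12) : T.h (F := F) (T.smB a b u) v = fe (om : F) a b * T.h u v := by
  rw [smB, h_add]
  cases a <;> cases b <;> simp [fe, bF, h_zero, h_w, add_mul]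

/-- Scalar multiplication. -/
noncomputable def sm (c : F) (u : W12) : W12 :=
  T.smB (exists_fe c).choose (exists_fe c).choose_spec.choose u

theorem h_sm (c : F) (u v : W12) : T.h (F := F) (T.sm c u) v = c * T.h u v := by
  conv_rhs => rw [(exists_fe c).choose_spec.choose_spec]
  rw [sm, h_smB]

/-- A linear combination. -/
noncomputable def comb {k : ℕ} (e : Fin k → W12) (x : Fin k → F) : W12 := ∑ i, T.sm (x i) (e i)

theorem h_sum {ι : Type*} (s : Finset ι) (f : ι → W12) (v : W12) :
    T.h (F := F) (∑ i ∈ s, f i) v = ∑ i ∈ s, T.h (f i) v := by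
  classical
  induction s using Finset.induction_on with
  | empty => simp [h_zero]
  | insert a s ha ih => rw [Finset.sum_insert ha, Finset.sum_insert ha, h_add, ih]

theorem h_comb {k : ℕ} (e : Fin k → W12) (x : Fin k → F) (v : W12) :
    T.h (T.comb e x) v = ∑ i, x i * T.h (e i) v := by
  simp only [comb, h_sum, h_sm]

/-- Orthonormal. -/
def Orth (F : Type) [Setup F] {k : ℕ} (e : Fin k → W12) : Prop :=
  ∀ i j, T.h (F := F) (e i) (e j) = if i = j then 1 else 0

theorem h_comb_basis {k : ℕ} {e : Fin k → W12} (he : T.Orth F e) (x : Fin k → F) (j : Fin k) :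
    T.h (T.comb e x) (e j) = x j := by
  rw [h_comb]
  simp [he _ j]

theorem cst_eq_zero {a : ZMod 2} (h : (cst a : F) = 0) : a = 0 := by
  have := charP_two (F := F)
  exact ZMod.castHom_injective F (h.trans (map_zero _).symm)

theorem B_of_h_zero {u v : W12} (hz : T.h (F := F) u v = 0) : T.B u v = 0 := by
  have h' := hz
  rw [h] at h'
  have e : ∀ a : ZMod 2, (cst a : F) = bF (decide (a = 1)) := fun a => by
    fin_cases a
    · exact (map_zero cst).trans rfl
    · exact (map_one cst).trans rfl
  rw [e, e] at h'
  have h'' : fe (om : F) (decide (T.B (T.w (T.w u)) v = 1)) (decide (T.B u v = 1)) = fe om false false := by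
    rw [show fe (om : F) false false = 0 by simp [fe, bF]]; exact h'
  have := (fe_inj h'').2
  rw [decide_eq_false_iff_not] at this
  revert this
  generalize T.B u v = b
  revert b
  decide

theorem comb_resid {k : ℕ} {e : Fin k → W12} (he : T.Orth F e) (v : W12) (j : Fin k) :
    T.h (F := F) (v + T.comb e (fun i => T.h (F := F) v (e i))) (e j) = 0 := by
  rw [h_add, T.h_comb_basis he]
  linear_combination T.h (F := F) v (e j) * two (F := F)

theorem exists_orth : ∀ k ≤ 6, ∃ e : Fin k → W12, T.Orth F e
  | 0, _ => ⟨Fin.elim0, fun i => i.elim0⟩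
  | k + 1, hk => by
    obtain ⟨e, he⟩ := exists_orth k (by omega)
    obtain ⟨c, hc0, hc⟩ : ∃ c, c ≠ 0 ∧ ∀ j, T.h (F := F) c (e j) = 0 := by
      by_contra hno
      push Not at hno
      have hinj : Function.Injective fun v => (fun i => T.h (F := F) v (e i)) := by
        intro u v huv
        by_contra hne
        obtain ⟨j, hj⟩ := hno (u + v) fun h0 => hne (by
          calc u = u + (v + v) := by rw [two_self, add_zero]
            _ = (u + v) + v := (add_assoc _ _ _).symm
            _ = v := by rw [h0, zero_add])
        refine hj ?_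
        have e' : T.h (F := F) u (e j) = T.h v (e j) := congrFun huv j
        rw [h_add, e']
        linear_combination T.h (F := F) v (e j) * two (F := F)
      have := Nat.card_le_card_of_injective _ hinj
      rw [Nat.card_fun, Nat.card_fun, Nat.card_zmod, Nat.card_fin, Nat.card_fin, Nat.card_eq_fintype_card,
        Setup.card, show (4 : ℕ) = 2 ^ 2 by norm_num, ← pow_mul] at this
      have := (Nat.pow_le_pow_iff_right (by norm_num : 1 < 2)).1 this
      omega
    obtain ⟨d, hd, hd1⟩ : ∃ d, (∀ j, T.h (F := F) d (e j) = 0) ∧ T.q d = 1 := by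
      by_contra hno
      push Not at hno
      have h01 : ∀ a : ZMod 2, a ≠ 1 → a = 0 := by decide
      have hq : ∀ d, (∀ j, T.h (F := F) d (e j) = 0) → T.q d = 0 := fun d hd => h01 _ (hno d hd)
      refine hc0 (T.nondeg c fun v => ?_)
      show T.B c v = 0
      set x := fun i => T.h (F := F) v (e i) with hx
      have hr := T.comb_resid (F := F) he v
      rw [← hx] at hr
      have e1 : T.B c (v + T.comb e x) = 0 := by
        simp only [B, hq c hc, hq _ hr, hq (c + (v + T.comb e x)) (fun j => by rw [h_add, hc j, hr j, add_zero]),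
          add_zero]
      have e2 : T.B c (T.comb e x) = 0 := by
        refine T.B_of_h_zero (F := F) ?_
        rw [T.h_conj, h_comb]
        simp only [fun i => T.h_conj (F := F) (e i) c, hc]
        simp
      have e3 : T.B c (v + T.comb e x) = T.B c v + T.B c (T.comb e x) := by
        rw [B_symm, B_add_left, T.B_symm v, T.B_symm (T.comb e x)]
      rw [e1, e2, add_zero] at e3
      exact e3.symm
    refine ⟨Fin.snoc e d, fun i j => ?_⟩
    induction i using Fin.lastCases with
    | last =>
      induction j using Fin.lastCases with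
      | last => simp [h_self, hd1]
      | cast j => simp [hd j, (Fin.castSucc_lt_last j).ne']
    | cast i =>
      induction j using Fin.lastCases with
      | last =>
        rw [Fin.snoc_castSucc, Fin.snoc_last, T.h_conj, hd i, if_neg (Fin.castSucc_lt_last i).ne]
        simp
      | cast j => simp [he i j]

/-- The module as a hermitian space in coordinates. -/
theorem exists_coord :
    ∃ φ : W12 → (Fin 6 → F), Function.Bijective φ ∧ (∀ u v, φ (u + v) = φ u + φ v) ∧
      (∀ u, φ (T.w u) = (om : F) • φ u) ∧ ∀ u, hermForm 6 F 2 (φ u) (φ u) = cst (T.q u) := by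
  obtain ⟨e, he⟩ := T.exists_orth (F := F) 6 le_rfl
  let φ : W12 → (Fin 6 → F) := fun u i => T.h u (e i)
  have hsurj : Function.Surjective φ := fun x => ⟨T.comb e x, funext fun j => T.h_comb_basis he x j⟩
  have hbij : Function.Bijective φ := by
    refine (Nat.bijective_iff_surjective_and_card φ).2 ⟨hsurj, ?_⟩
    rw [Nat.card_fun, Nat.card_fun, Nat.card_zmod, Nat.card_fin, Nat.card_fin, Nat.card_eq_fintype_card,
      Setup.card]
    norm_num
  refine ⟨φ, hbij, fun u v => funext fun i => T.h_add u v (e i), fun u => funext fun i => T.h_w u (e i),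
    fun u => ?_⟩
  have hu : T.comb e (φ u) = u := hbij.1 (funext fun j => T.h_comb_basis he _ j)
  rw [← T.h_self]
  conv_rhs => rw [show T.h (F := F) u u = T.h (T.comb e (φ u)) u by rw [hu]]
  rw [h_comb]
  simp only [hermForm]
  exact Finset.sum_congr rfl fun i _ => by rw [T.h_conj (e i) u]

end Turn

end Cfsg.Agent.H66.JFour
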