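import Cfsg.Agent.H18.Singular.Basic
import Cfsg.Agent.H18.Extraspecial
import Cfsg.Agent.H66.JFour.Turn

/-!
# The action on an extraspecial normal subgroup modulo its centre
-/

set_option autoImplicit false
set_option linter.unusedSectionVars false

namespace Cfsg.Agent.H66.JFour

open Matrix

/-- An extraspecial normal subgroup of order 2^13 containing its centraliser, with the central involution. -/
structure Core {C : Type*} [Group C] (Q : Subgroup C) (e : C) : Prop where
  nrm : Q.Normal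
  ext : Cfsg.IsExtraspecial 2 Q
  card : Nat.card Q = 2 ^ 13
  mem : e ∈ Q
  ne : e ≠ 1
  sq : e * e = 1
  comm : ∀ c, c * e = e * c
  self : ∀ c, (∀ q ∈ Q, q * c = c * q) → c ∈ Q

variable {C : Type*} [Group C] [Finite C] {Q : Subgroup C} [Q.Normal] {e : C}

/-- Conjugation inside `Q`. -/
def cj (h : C) (a : Q) : Q := ⟨h * a * h⁻¹, (inferInstance : Q.Normal).conj_mem _ a.2 h⟩

theorem cj_mul (h : C) (a b : Q) : cj h (a * b) = cj h a * cj h b :=
  Subtype.ext (by show h * (a.1 * b.1) * h⁻¹ = h * a.1 * h⁻¹ * (h * b.1 * h⁻¹); group)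

theorem cj_cj (h k : C) (a : Q) : cj h (cj k a) = cj (h * k) a :=
  Subtype.ext (by show h * (k * a.1 * k⁻¹) * h⁻¹ = h * k * a.1 * (h * k)⁻¹; group)

theorem cj_one (a : Q) : cj 1 a = a := Subtype.ext (by show 1 * a.1 * 1⁻¹ = a.1; group)

namespace Core

variable (hs : Core Q e)
include hs

theorem central_iff (c : Q) : c ∈ Subgroup.center Q ↔ c.1 = 1 ∨ c.1 = e := by
  obtain ⟨w, hw1, -, hw⟩ := H18.center_eq_pair hs.ext
  have hec : (⟨e, hs.mem⟩ : Q) ∈ Subgroup.center Q :=
    Subgroup.mem_center_iff.2 fun q => Subtype.ext (hs.comm q.1)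
  have hew := ((hw _).1 hec).resolve_left fun h => hs.ne (congrArg Subtype.val h)
  rw [hw, ← hew, ← Subtype.coe_inj, ← Subtype.coe_inj (b := (⟨e, hs.mem⟩ : Q))]
  rfl

theorem singPt : H18.SingPt Q e where
  xx := hs.sq
  xne := hs.ne
  mem := hs.mem
  ext := hs.ext
  cent y hy := (hs.central_iff ⟨y, hs.self y hy⟩).1
    (Subgroup.mem_center_iff.2 fun q => Subtype.ext (hy q.1 q.2))
  comm_x q _ := hs.comm q
  norm a _ q hq := (inferInstance : Q.Normal).conj_mem q hq a

open Classical in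
/-- The bit of a central element. -/
noncomputable def bit (c : Q) : ZMod 2 :=
  have := hs
  if c.1 = 1 then 0 else 1

theorem bit_mul {a b : Q} (ha : a ∈ Subgroup.center Q) (hb : b ∈ Subgroup.center Q) :
    hs.bit (a * b) = hs.bit a + hs.bit b := by
  have h2 : (1 : ZMod 2) + 1 = 0 := by decide
  rcases (hs.central_iff a).1 ha with h | h <;> rcases (hs.central_iff b).1 hb with h' | h' <;>
    simp [bit, h, h', hs.sq, hs.ne, h2]

theorem bit_eq_zero {a : Q} (ha : a ∈ Subgroup.center Q) (h : hs.bit a = 0) : a = 1 := by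
  refine Subtype.ext ?_
  rcases (hs.central_iff a).1 ha with h' | h'
  · exact h'
  · simp [bit, h', hs.ne] at h

theorem sq_central (a : Q) : a * a ∈ Subgroup.center Q := by
  exact (hs.central_iff _).2 (hs.singPt.pair (hs.singPt.sq a.2))

/-- Coordinates. -/
theorem exists_vec : ∃ v : Q → (Fin 12 → ZMod 2), Function.Surjective v ∧ (∀ a b, v (a * b) = v a + v b) ∧
    ∀ a, v a = 0 ↔ a ∈ Subgroup.center Q := by
  classical
  have hsq := hs.sq_central
  have hext := hs.ext
  have hcomm : ∀ x y : Q ⧸ Subgroup.center Q, x * y = y * x := by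
    intro x y
    induction x using QuotientGroup.induction_on with
    | _ a => induction y using QuotientGroup.induction_on with
      | _ b =>
        rw [← QuotientGroup.mk_mul, ← QuotientGroup.mk_mul, QuotientGroup.eq]
        have := H18.commutator_mem_center hext b⁻¹ a⁻¹
        rw [commutatorElement_def, inv_inv, inv_inv] at this
        rwa [_root_.mul_inv_rev, ← mul_assoc]
  letI : CommGroup (Q ⧸ Subgroup.center Q) := { (inferInstance : Group (Q ⧸ Subgroup.center Q)) with mul_comm := hcomm }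
  let V := Additive (Q ⧸ Subgroup.center Q)
  have h2 : ∀ x : V, 2 • x = 0 := by
    intro x
    obtain ⟨a, ha⟩ := QuotientGroup.mk_surjective (Additive.toMul x)
    rw [two_nsmul]
    refine Additive.toMul.injective ?_
    show Additive.toMul x * Additive.toMul x = 1
    rw [← ha, ← QuotientGroup.mk_mul, QuotientGroup.eq_one_iff]
    exact hsq a
  letI : Module (ZMod 2) V := AddCommGroup.zmodModule h2
  have : Finite V := inferInstanceAs (Finite (Q ⧸ Subgroup.center Q))
  have hcard : Nat.card V = 2 ^ 12 := by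
    have h := (Subgroup.center Q).card_eq_card_quotient_mul_card_subgroup
    rw [hs.card, hext.2] at h
    show Nat.card (Q ⧸ Subgroup.center Q) = 2 ^ 12
    omega
  have hfr : Module.finrank (ZMod 2) V = 12 := by
    have := Module.natCard_eq_pow_finrank (K := ZMod 2) (V := V)
    rw [hcard, Nat.card_zmod] at this
    exact (Nat.pow_right_injective le_rfl this).symm
  let e : V ≃ₗ[ZMod 2] (Fin 12 → ZMod 2) := (Module.finBasisOfFinrankEq (ZMod 2) V hfr).equivFun
  refine ⟨fun a => e (Additive.ofMul (QuotientGroup.mk a)), fun x => ?_, fun a b => ?_, fun a => ?_⟩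
  · obtain ⟨a, ha⟩ := QuotientGroup.mk_surjective (Additive.toMul (e.symm x))
    exact ⟨a, by simp [ha]⟩
  · rw [← map_add]; rfl
  · rw [← map_zero e, e.injective.eq_iff]
    exact ⟨fun h => (QuotientGroup.eq_one_iff a).1 (congrArg Additive.toMul h),
      fun h => congrArg Additive.ofMul ((QuotientGroup.eq_one_iff a).2 h)⟩


theorem exists_action :
    ∃ (v : Q → W12) (q : W12 → ZMod 2)
      (τ : C →* Matrix (Fin 12) (Fin 12) (ZMod 2)),
      Function.Surjective v ∧ (∀ a b, v (a * b) = v a + v b) ∧ (∀ a, v a = 0 ↔ a.1 = 1 ∨ a.1 = e) ∧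
      (∀ a : Q, q (v a) = 0 ↔ a.1 * a.1 = 1) ∧ q 0 = 0 ∧
      (∀ u u' w, q (u + u' + w) + q (u + u') + q w = (q (u + w) + q u + q w) + (q (u' + w) + q u' + q w)) ∧
      (∀ u, (∀ w, q (u + w) + q u + q w = 0) → u = 0) ∧ (∀ h u, q (τ h *ᵥ u) = q u) ∧
      (∀ h a, τ h *ᵥ v a = v (cj h a)) ∧ ∀ h, τ h = 1 ↔ h ∈ Q := by
  classical
  have hS := hs.singPt
  obtain ⟨v, hsurj, hmul, hzero⟩ := hs.exists_vec
  choose lft hlft using hsurj
  have hv1 : v 1 = 0 := (hzero 1).2 (one_mem _)
  have hinv : ∀ a, v a⁻¹ = v a := fun a => by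
    have h := hmul a⁻¹ a
    rw [inv_mul_cancel, hv1] at h
    calc v a⁻¹ = v a⁻¹ + (v a + v a) := by rw [Turn.two_self, add_zero]
      _ = (v a⁻¹ + v a) + v a := (add_assoc _ _ _).symm
      _ = v a := by rw [← h, zero_add]
  have hv_eq : ∀ a b, v a = v b → ∃ c ∈ Subgroup.center Q, b = a * c := fun a b e =>
    ⟨a⁻¹ * b, (hzero _).1 (by rw [hmul, hinv, e, Turn.two_self]), (mul_inv_cancel_left a b).symm⟩
  let q : W12 → ZMod 2 := fun w => hs.bit (lft w * lft w)
  have hsqc : ∀ a c : Q, c ∈ Subgroup.center Q → a * c * (a * c) = a * a := by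
    intro a c hc
    have hcc : c * c = 1 := Subtype.ext (by
      show c.1 * c.1 = 1
      rcases (hs.central_iff c).1 hc with e | e <;> simp [e, hS.xx])
    calc a * c * (a * c) = a * (c * a) * c := by group
      _ = a * a * (c * c) := by rw [← Subgroup.mem_center_iff.1 hc a]; group
      _ = a * a := by rw [hcc, mul_one]
  have hqv : ∀ a, q (v a) = hs.bit (a * a) := fun a => by
    obtain ⟨c, hc, e⟩ := hv_eq a (lft (v a)) (hlft (v a)).symm
    show hs.bit (lft (v a) * lft (v a)) = _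
    rw [e, hsqc a c hc]
  let β : Q → Q → ZMod 2 := fun a b => hs.bit (a⁻¹ * b * a * b⁻¹)
  have hκ : ∀ a b : Q, a⁻¹ * b * a * b⁻¹ ∈ Subgroup.center Q := fun a b => by
    have := H18.commutator_mem_center hs.ext a⁻¹ b
    rwa [commutatorElement_def, inv_inv] at this
  have hqadd : ∀ a b, q (v a + v b) = q (v a) + q (v b) + β a b := by
    intro a b
    rw [← hmul, hqv, hqv, hqv]
    have e : a * b * (a * b) = a * a * (a⁻¹ * b * a * b⁻¹) * (b * b) := by group
    rw [e, hs.bit_mul (mul_mem (hs.sq_central a) (hκ a b)) (hs.sq_central b),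
      hs.bit_mul (hs.sq_central a) (hκ a b)]
    ring
  have hpol : ∀ a b, q (v a + v b) + q (v a) + q (v b) = β a b := fun a b => by
    rw [hqadd]
    calc q (v a) + q (v b) + β a b + q (v a) + q (v b)
        = (q (v a) + q (v a)) + (q (v b) + q (v b)) + β a b := by ring
      _ = _ := by rw [CharTwo.add_self_eq_zero, CharTwo.add_self_eq_zero, zero_add, zero_add]
  have hβ : ∀ a a' b, β (a * a') b = β a b + β a' b := by
    intro a a' b
    have hc := Subgroup.mem_center_iff.1 (hκ a b)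
    have e : (a * a')⁻¹ * b * (a * a') * b⁻¹ = (a⁻¹ * b * a * b⁻¹) * (a'⁻¹ * b * a' * b⁻¹) := by
      calc (a * a')⁻¹ * b * (a * a') * b⁻¹ = a'⁻¹ * (a⁻¹ * b * a * b⁻¹) * (b * a' * b⁻¹) := by group
        _ = (a⁻¹ * b * a * b⁻¹) * a'⁻¹ * (b * a' * b⁻¹) := by rw [hc a'⁻¹]
        _ = _ := by group
    simp only [β]
    rw [e, hs.bit_mul (hκ a b) (hκ a' b)]
  let Lh : C → W12 → W12 := fun h w => v (cj h (lft w))
  have hcen : ∀ h c, c ∈ Subgroup.center Q → cj h c ∈ Subgroup.center Q := fun h c hc =>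
    (hs.central_iff _).2 (by
      show h * c.1 * h⁻¹ = 1 ∨ h * c.1 * h⁻¹ = e
      rcases (hs.central_iff c).1 hc with e' | e' <;> rw [e']
      · exact Or.inl (by group)
      · exact Or.inr (by rw [hs.comm h, mul_inv_cancel_right]))
  have hLv : ∀ h a, Lh h (v a) = v (cj h a) := fun h a => by
    obtain ⟨c, hc, e⟩ := hv_eq a (lft (v a)) (hlft (v a)).symm
    show v (cj h (lft (v a))) = _
    rw [e, cj_mul, hmul, (hzero _).2 (hcen h c hc), add_zero]
  have hLadd : ∀ h u w, Lh h (u + w) = Lh h u + Lh h w := fun h u w => by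
    conv_lhs => rw [← hlft u, ← hlft w, ← hmul, hLv, cj_mul, hmul, ← hLv, ← hLv, hlft, hlft]
  let T : C → Matrix (Fin 12) (Fin 12) (ZMod 2) := fun h =>
    LinearMap.toMatrix' ((AddMonoidHom.mk' (Lh h) (hLadd h)).toZModLinearMap 2)
  have hT : ∀ h a, T h *ᵥ v a = v (cj h a) := fun h a => by
    show LinearMap.toMatrix' _ *ᵥ v a = _
    rw [← Matrix.toLin'_apply, Matrix.toLin'_toMatrix']
    exact hLv h a
  have hText : ∀ X Y : Matrix (Fin 12) (Fin 12) (ZMod 2), (∀ a, X *ᵥ v a = Y *ᵥ v a) → X = Y := fun X Y h =>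
    Matrix.ext_of_mulVec_single fun i => by rw [← hlft (Pi.single i 1)]; exact h _
  let τ : C →* Matrix (Fin 12) (Fin 12) (ZMod 2) :=
    { toFun := T
      map_one' := hText _ _ fun a => by rw [hT, Matrix.one_mulVec, cj_one]
      map_mul' := fun h k => hText _ _ fun a => by rw [hT, ← Matrix.mulVec_mulVec, hT, hT, cj_cj] }
  have hτ : ∀ h a, τ h *ᵥ v a = v (cj h a) := hT
  refine ⟨v, q, τ, fun w => ⟨lft w, hlft w⟩, hmul, fun a => (hzero a).trans (hs.central_iff a), fun a => ?_, ?_,
    fun u u' w => ?_, fun u hu => ?_, fun h u => ?_, hτ, fun h => ?_⟩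
  · rw [hqv]
    show hs.bit (a * a) = 0 ↔ _
    constructor
    · intro h
      exact congrArg Subtype.val (hs.bit_eq_zero (hs.sq_central a) h)
    · intro h
      simp [bit, h]
  · rw [← hv1, hqv]
    simp [bit]
  · rw [← hlft u, ← hlft u', ← hlft w, ← hmul (lft u) (lft u'), hpol, hpol, hpol, hβ]
  · obtain ⟨a, rfl⟩ : ∃ a, v a = u := ⟨lft u, hlft u⟩
    refine (hzero a).2 (Subgroup.mem_center_iff.2 fun b => ?_)
    have h1 : β a b = 0 := by rw [← hpol]; exact hu (v b)
    have h2 := hs.bit_eq_zero (hκ a b) h1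
    calc b * a = a * (a⁻¹ * b * a * b⁻¹) * b := by group
      _ = a * b := by rw [h2, mul_one]
  · rw [← hlft u, hτ, hqv, hqv, ← cj_mul]
    obtain e' | e' := (hs.central_iff _).1 (hs.sq_central (lft u))
    · have e'' : (cj h (lft u * lft u)).1 = 1 := by
        show h * (lft u * lft u).1 * h⁻¹ = 1
        rw [e']; group
      simp only [bit, e', e'']
    · have e'' : (cj h (lft u * lft u)).1 = e := by
        show h * (lft u * lft u).1 * h⁻¹ = e
        rw [e', hs.comm h, mul_inv_cancel_right]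
      simp only [bit, e', e'']
  · constructor
    · intro hh
      refine hS.mem_of_disp (hs.comm h) fun g hg => ?_
      have e1 : v (cj h ⟨g, hg⟩) = v ⟨g, hg⟩ := by rw [← hτ, hh, Matrix.one_mulVec]
      obtain ⟨c, hc, e2⟩ := hv_eq _ _ e1.symm
      have e3 : h * g * h⁻¹ = g * c.1 := congrArg Subtype.val e2
      rw [H18.mem_zpowers_iff_pair hS.xx, e3, inv_mul_cancel_left]
      exact (hs.central_iff c).1 hc
    · intro hh
      refine hText _ _ fun a => ?_
      rw [hτ, Matrix.one_mulVec]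
      have e : cj h a = a * ((a⁻¹ * ⟨h, hh⟩ * a * (⟨h, hh⟩ : Q)⁻¹)) := Subtype.ext (by
        show h * a.1 * h⁻¹ = a.1 * (a.1⁻¹ * h * a.1 * h⁻¹); group)
      rw [e, hmul, (hzero _).2 (hκ a ⟨h, hh⟩), add_zero]

end Core

end Cfsg.Agent.H66.JFour
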