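import Cfsg.Agent.H12.Code
import Cfsg.Prelude.Def_Spor_Mathieu
import Cfsg.Agent.H66.JFour.Data

/-!
# Checks on the tables
-/

set_option autoImplicit false
set_option maxRecDepth 100000

namespace Cfsg.Agent.H66.JFour

open Cfsg Cfsg.Agent.H12

/-- A code of a member in standard form. -/
def okC (P : ℕ) : Bool :=
  fixesCode P && Nat.beq (app P 23) 23 && Nat.beq (app P 0) 0 && Nat.beq (pmul P pone) P

/-- Membership in a list of numbers. -/
def memC (x : ℕ) (l : List ℕ) : Bool := l.any (Nat.beq x)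

theorem memC_iff {x : ℕ} {l : List ℕ} : memC x l = true ↔ x ∈ l := by
  simp only [memC, List.any_eq_true]
  exact ⟨fun ⟨y, hy, e⟩ => Nat.eq_of_beq_eq_true e ▸ hy, fun h => ⟨x, h, Nat.beq_refl x⟩⟩

/-- All the tables consist of members. -/
def tabOK : Bool :=
  aL.all okC && sGen.all okC && sL.all okC && trL.all (fun p => okC p.1 && okC p.2) && okC aBase &&
    okC g1c && okC g2c && okC nonComm.1 && okC nonComm.2 &&
    dL.all fun d => okC d.1 && okC d.2.1 && okC d.2.2.1 && okC d.2.2.2.1 && okC d.2.2.2.2.1 && okC d.2.2.2.2.2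

theorem tab_ok : tabOK = true := by decide +kernel

/-- The elementary subgroup. -/
def aOK : Bool :=
  Nat.beq aL.length 16 && Nat.beq (aL.getD 0 0) pone && memC aBase aL && !(Nat.beq aBase pone) &&
    aL.all (fun a => Nat.beq (pmul a a) pone && memC a sL && aL.all fun b => memC (pmul a b) aL)

theorem a_ok : aOK = true := by decide +kernel

theorem aL_nodup : aL.Nodup := by decide +kernel

/-- The Sylow subgroup. -/
def sOK : Bool :=
  Nat.beq sL.length 128 && Nat.beq (sL.getD 0 0) pone && Nat.beq sEdge.length 127 &&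
    (List.range 127).all (fun k => Nat.blt (sEdge.getD k (0, 0)).1 (k + 1) && Nat.blt (sEdge.getD k (0, 0)).2 3 &&
      Nat.beq (sL.getD (k + 1) 0) (pmul (sGen.getD (sEdge.getD k (0, 0)).2 0) (sL.getD (sEdge.getD k (0, 0)).1 0))) &&
    sGen.all (fun g => sL.all (fun s => memC (pmul g s) sL) && aL.all fun a => memC (pmul g a) (aL.map fun b => pmul b g))

theorem s_ok : sOK = true := by decide +kernel

theorem sL_nodup : sL.Nodup := by decide +kernel

/-- The normaliser data. -/
def nOK : Bool :=
  aL.all (fun a => Nat.beq a pone || trL.any fun p => Nat.beq p.1 a) &&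
    trL.all (fun p => memC p.1 aL && Nat.beq (pmul p.2 aBase) (pmul p.1 p.2) &&
      aL.all fun a => memC (pmul p.2 a) (aL.map fun b => pmul b p.2)) &&
    [g1c, g2c].all (fun g => Nat.beq (pmul g (pmul g g)) pone && !(Nat.beq g pone) &&
      aL.all fun a => memC (pmul g a) (aL.map fun b => pmul b g)) &&
    Nat.beq (pmul g1c g2c) (pmul g2c g1c) && !(memC g2c [pone, g1c, pmul g1c g1c])

theorem n_ok : nOK = true := by decide +kernel

/-- Two elements with commutator outside. -/
def cOK : Bool :=
  memC nonComm.1 sL && memC nonComm.2 sL &&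
    aL.all fun a => !(Nat.beq (pmul nonComm.1 nonComm.2) (pmul a (pmul nonComm.2 nonComm.1)))

theorem c_ok : cOK = true := by decide +kernel

/-- A centralised four group is enough to generate the elementary subgroup. -/
def dOK : Bool :=
  dL.all fun d =>
    memC d.1 aL && memC d.2.1 aL && memC d.2.2.1 aL && memC d.2.2.2.1 aL &&
      !(Nat.beq d.1 pone) && !(Nat.beq d.2.1 pone) && !(Nat.beq d.1 d.2.1) &&
      Nat.beq (pmul d.2.2.2.2.1 d.1) (pmul d.1 d.2.2.2.2.1) &&
      Nat.beq (pmul d.2.2.2.2.2 d.2.1) (pmul d.2.1 d.2.2.2.2.2) &&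
      Nat.beq (pmul d.2.2.2.2.1 d.2.1) (pmul d.2.2.1 d.2.2.2.2.1) &&
      Nat.beq (pmul d.2.2.2.2.2 d.1) (pmul d.2.2.2.1 d.2.2.2.2.2) &&
      aL.all fun t => memC t
        ([pone, d.1, d.2.1, pmul d.1 d.2.1].flatMap fun u =>
          [u, pmul d.2.2.1 u, pmul d.2.2.2.1 u, pmul d.2.2.1 (pmul d.2.2.2.1 u)])

theorem d_ok : dOK = true := by decide +kernel

/-- The involutions outside centralise at most a listed four group. -/
def oOK : Bool :=
  sL.all fun s => memC s aL || !(Nat.beq (pmul s s) pone) ||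
    dL.any fun d => Nat.beq (pmul s d.1) (pmul d.1 s) && Nat.beq (pmul s d.2.1) (pmul d.2.1 s) &&
      aL.all fun c => !(Nat.beq (pmul s c) (pmul c s)) || memC c [pone, d.1, d.2.1, pmul d.1 d.2.1]

theorem o_ok : oOK = true := by decide +kernel

theorem app_pone : ∀ i < 24, app pone i = i := by decide +kernel

end Cfsg.Agent.H66.JFour
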