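import Cfsg.Agent.H66.JFour.Turn

/-!
# Totally singular subgroups of a six dimensional hermitian space over four elements
-/

set_option autoImplicit false
set_option linter.unusedSectionVars false

namespace Cfsg.Agent.H66.JFour

open Matrix Cfsg.Agent.H8.U62 Cfsg.Agent.H8.U62.Setup

variable {F : Type} [Setup F]

/-- Six dimensional vectors. -/
abbrev Vec (F : Type) [Setup F] : Type := Fin 6 → F

theorem herm_add_left (x y z : Vec F) :
    hermForm 6 F 2 (x + y) z = hermForm 6 F 2 x z + hermForm 6 F 2 y z := by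
  simp only [hermForm, Pi.add_apply, add_mul, Finset.sum_add_distrib]

theorem herm_smul_left (c : F) (x y : Vec F) : hermForm 6 F 2 (c • x) y = c * hermForm 6 F 2 x y := by
  simp only [hermForm, Pi.smul_apply, smul_eq_mul, Finset.mul_sum, mul_assoc]

theorem herm_add_right (x y z : Vec F) :
    hermForm 6 F 2 x (y + z) = hermForm 6 F 2 x y + hermForm 6 F 2 x z := by
  have := charP_two (F := F)
  simp only [hermForm, Pi.add_apply, add_pow_char, mul_add, Finset.sum_add_distrib]

theorem herm_smul_right (c : F) (x y : Vec F) : hermForm 6 F 2 x (c • y) = c ^ 2 * hermForm 6 F 2 x y := by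
  simp only [hermForm, Pi.smul_apply, smul_eq_mul, mul_pow, Finset.mul_sum]
  exact Finset.sum_congr rfl fun i _ => by ring

theorem herm_symm (x y : Vec F) : hermForm 6 F 2 y x = hermForm 6 F 2 x y ^ 2 := by
  have := charP_two (F := F)
  simp only [hermForm]
  rw [show (∑ i, x i * y i ^ 2) ^ 2 = frobenius F 2 (∑ i, x i * y i ^ 2) from rfl, map_sum]
  refine Finset.sum_congr rfl fun i _ => ?_
  show y i * x i ^ 2 = (x i * y i ^ 2) ^ 2
  rw [mul_pow, Turn.pow_four, mul_comm]

theorem herm_zero_comm {x y : Vec F} (h : hermForm 6 F 2 x y = 0) : hermForm 6 F 2 y x = 0 := by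
  rw [herm_symm, h]; norm_num

theorem herm_add_self (x y : Vec F) : hermForm 6 F 2 (x + y) (x + y) =
    hermForm 6 F 2 x x + hermForm 6 F 2 y y + (hermForm 6 F 2 x y + hermForm 6 F 2 x y ^ 2) := by
  rw [herm_add_left, herm_add_right, herm_add_right, ← herm_symm x y]
  ring

/-- The form is non-degenerate. -/
theorem herm_nondeg {y : Vec F} (h : ∀ x, hermForm 6 F 2 x y = 0) : y = 0 := by
  funext i
  have h' := h (Pi.single i 1)
  rw [hermForm, Finset.sum_eq_single i (fun j _ hj => by rw [Pi.single_eq_of_ne hj, zero_mul]) (by simp),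
    Pi.single_eq_same, one_mul] at h'
  exact pow_eq_zero_iff (two_ne_zero (α := ℕ)) |>.1 h'

theorem add_self_vec (v : Vec F) : v + v = 0 := by
  funext j
  show v j + v j = 0
  linear_combination v j * two (F := F)

theorem neg_vec (v : Vec F) : -v = v := neg_eq_of_add_eq_zero_left (add_self_vec v)

theorem sub_vec (u v : Vec F) : u - v = u + v := by rw [sub_eq_add_neg, neg_vec]

theorem zero_or_one {t : F} (h : t ^ 2 = t) : t = 0 ∨ t = 1 := by
  rcases mul_eq_zero.1 (show t * (t - 1) = 0 by linear_combination h) with e | e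
  · exact Or.inl e
  · exact Or.inr (sub_eq_zero.1 e)

theorem trace_sq (t : F) : (t + t ^ 2) ^ 2 = t + t ^ 2 := by
  have := charP_two (F := F)
  rw [add_pow_char, Turn.pow_four, add_comm]

open Classical in
/-- The bit of an element fixed by squaring. -/
noncomputable def bitF (t : F) : ZMod 2 := if t = 0 then 0 else 1

theorem bitF_add {a b : F} (ha : a ^ 2 = a) (hb : b ^ 2 = b) : bitF (a + b) = bitF a + bitF b := by
  have h2 : (1 : ZMod 2) + 1 = 0 := by decide
  rcases zero_or_one ha with rfl | rfl <;> rcases zero_or_one hb with rfl | rfl <;> simp [bitF, two, h2]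

theorem bitF_eq_zero {a : F} : bitF a = 0 ↔ a = 0 := by
  by_cases h : a = 0 <;> simp [bitF, h]

theorem two_nsmul_vec (v : Vec F) : 2 • v = 0 := by rw [two_nsmul, add_self_vec]

/-- The polar form over the prime field. -/
noncomputable def polar (u v : Vec F) : ZMod 2 := bitF (hermForm 6 F 2 u v + hermForm 6 F 2 u v ^ 2)

theorem polar_add_left (u u' v : Vec F) : polar (u + u') v = polar u v + polar u' v := by
  have := charP_two (F := F)
  rw [polar, polar, polar, ← bitF_add (trace_sq _) (trace_sq _), herm_add_left, add_pow_char]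
  congr 1
  ring

theorem polar_symm (u v : Vec F) : polar u v = polar v u := by
  rw [polar, polar, herm_symm u v, Turn.pow_four, add_comm]

/-- Totally singular subgroups have at most 64 members, and those with 64 are their own orthogonal complements. -/
theorem singular_facts (S : AddSubgroup (Vec F)) (h : ∀ s ∈ S, hermForm 6 F 2 s s = 0) :
    Nat.card S ≤ 64 ∧ (Nat.card S = 64 → ∀ v,
      (∀ w ∈ S, hermForm 6 F 2 v w + hermForm 6 F 2 v w ^ 2 = 0) → v ∈ S) := by
  classical
  letI : Module (ZMod 2) (Vec F) := AddCommGroup.zmodModule two_nsmul_vec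
  let Bm : LinearMap.BilinForm (ZMod 2) (Vec F) :=
    (AddMonoidHom.mk' (fun u => (AddMonoidHom.mk' (fun v => polar u v) (fun v v' => by
        simp only [polar_symm u, polar_add_left])).toZModLinearMap 2)
      (fun u u' => LinearMap.ext fun v => by
        rw [LinearMap.add_apply]; exact polar_add_left u u' v)).toZModLinearMap 2
  have hBm : ∀ u v, Bm u v = polar u v := fun u v => rfl
  have hsym : Bm.IsRefl := fun u v e => by rw [hBm, polar_symm, ← hBm]; exact e
  have hnd : Bm.Nondegenerate := by
    rw [LinearMap.BilinForm.nondegenerate_iff_ker_eq_bot, Submodule.eq_bot_iff]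
    intro y hy
    refine herm_nondeg fun x => ?_
    have h1 : ∀ x, hermForm 6 F 2 y x + hermForm 6 F 2 y x ^ 2 = 0 := fun x => by
      refine bitF_eq_zero.1 ?_
      rw [show bitF _ = polar y x from rfl, ← hBm, LinearMap.mem_ker.1 hy]
      rfl
    have e1 := h1 x
    have e2 := h1 ((om : F) • x)
    rw [herm_smul_right, mul_pow, Turn.pow_four] at e2
    have hω : (om : F) ^ 2 = om + 1 := by rw [pow_two, hom]
    refine herm_zero_comm ?_
    linear_combination e2 - (om : F) * e1 - hermForm 6 F 2 y x * hω
  have hfr : Module.finrank (ZMod 2) (Vec F) = 12 := by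
    have := Module.natCard_eq_pow_finrank (K := ZMod 2) (V := Vec F)
    rw [Nat.card_zmod, Nat.card_fun, Nat.card_eq_fintype_card, Nat.card_eq_fintype_card, Setup.card,
      Fintype.card_fin] at this
    exact (Nat.pow_right_injective le_rfl (this.symm.trans (by norm_num : (4 : ℕ) ^ 6 = 2 ^ 12)))
  let W : Submodule (ZMod 2) (Vec F) := AddSubgroup.toZModSubmodule 2 S
  have hW : ∀ v, v ∈ W ↔ v ∈ S := fun v => Iff.rfl
  have hle : W ≤ Bm.orthogonal W := by
    intro v hv w hw
    show Bm w v = 0
    rw [hBm, polar, bitF_eq_zero]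
    have e := h _ (S.add_mem ((hW w).1 hw) ((hW v).1 hv))
    rwa [herm_add_self, h _ ((hW w).1 hw), h _ ((hW v).1 hv), add_zero, zero_add] at e
  have ho := LinearMap.BilinForm.finrank_orthogonal hnd W
  have hmono := Submodule.finrank_mono hle
  have hcard : Nat.card S = 2 ^ Module.finrank (ZMod 2) W := by
    have := Module.natCard_eq_pow_finrank (K := ZMod 2) (V := W)
    rw [Nat.card_zmod] at this
    rw [← this]
    rfl
  rw [hfr] at ho
  refine ⟨?_, fun h64 v hv => ?_⟩
  · rw [hcard, show (64 : ℕ) = 2 ^ 6 by norm_num]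
    exact Nat.pow_le_pow_right (by norm_num) (by omega)
  · have h6 : Module.finrank (ZMod 2) W = 6 :=
      Nat.pow_right_injective le_rfl (hcard.symm.trans (h64.trans (by norm_num)))
    have heq := Submodule.eq_of_le_of_finrank_le hle (by omega)
    rw [← hW, heq]
    intro w hw
    show Bm w v = 0
    rw [hBm, polar_symm, polar, bitF_eq_zero]
    exact hv w ((hW w).1 hw)

/-- Involutions preserving the form are self-adjoint. -/
theorem herm_invol {g : SU6 F} (hg : g * g = 1) (u w : Vec F) :
    hermForm 6 F 2 (mat g *ᵥ u + u) w = hermForm 6 F 2 u (mat g *ᵥ w + w) := by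
  have e : mat g *ᵥ (mat g *ᵥ w) = w := by rw [Matrix.mulVec_mulVec, ← mat_mul, hg, mat_one, Matrix.one_mulVec]
  rw [herm_add_left, herm_add_right]
  congr 1
  conv_lhs => rw [← e, herm_mulVec]

end Cfsg.Agent.H66.JFour
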