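import Cfsg.Agent.H66.JFour.Perms
import Cfsg.Agent.H66.JFour.Singular
import Cfsg.Agent.H13.Groups

/-!
# A triple cover of the Mathieu group on 22 points acting on a hermitian space
-/

set_option autoImplicit false
set_option linter.unusedSectionVars false
set_option maxHeartbeats 500000

namespace Cfsg.Agent.H66.JFour

open Matrix Cfsg.Agent.H8.U62 Cfsg.Agent.H8.U62.Setup

theorem card_MT : Nat.card MT = 443520 := by
  show Nat.card Cfsg.Spor.M22 = _
  rw [H13.M22_eq, H13.card_g22]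

/-- A non-split central extension by scalars of order three inside the unitary group. -/
structure Cover (F : Type) [Setup F] where
  L : Subgroup (SU6 F)
  π : L →* MT
  surj : Function.Surjective π
  t : L
  t_act : ∀ v, mat t.1 *ᵥ v = (om : F) • v
  t_map : π t = 1
  t_comm : t ∈ commutator L
  ker : ∀ g, π g = 1 → g ∈ Subgroup.zpowers t

namespace Cover

variable {F : Type} [Setup F] (K : Cover F)

attribute [local irreducible] sixteen sylT

instance : Finite (SU6 F) := Finite.of_injective (fun g => mat g) fun _ _ h => ext_mat h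

theorem act_inj {g h : K.L} (e : ∀ v, mat g.1 *ᵥ v = mat h.1 *ᵥ v) : g = h :=
  Subtype.ext (ext_mat (Matrix.ext_iff_mulVec.2 e))

theorem act_mul (g h : K.L) (v : Vec F) : mat (g * h).1 *ᵥ v = mat g.1 *ᵥ (mat h.1 *ᵥ v) := by
  rw [Matrix.mulVec_mulVec]; rfl

theorem act_one (v : Vec F) : mat (1 : K.L).1 *ᵥ v = v := by
  show (1 : Matrix (Fin 6) (Fin 6) F) *ᵥ v = v
  rw [Matrix.one_mulVec]

theorem t_central (g : K.L) : K.t * g = g * K.t := K.act_inj fun v => by
  rw [K.act_mul, K.act_mul, K.t_act, K.t_act, Matrix.mulVec_smul]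

theorem t_cube : K.t ^ 3 = 1 := K.act_inj fun v => by
  rw [pow_three, K.act_mul, K.act_mul, K.t_act, K.t_act, K.t_act, smul_smul, smul_smul,
    cube_eq_one om_ne_zero, one_smul, K.act_one]

theorem t_ne : K.t ≠ 1 := fun h => by
  have e := K.t_act (Pi.single 0 1)
  rw [h, K.act_one] at e
  have := congrFun e 0
  rw [Pi.smul_apply, smul_eq_mul, Pi.single_eq_same, mul_one] at this
  exact om_ne_one this.symm

theorem ker_eq : K.π.ker = Subgroup.zpowers K.t :=
  le_antisymm (fun g hg => K.ker g hg) (Subgroup.zpowers_le.2 K.t_map)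

theorem card_ker : Nat.card K.π.ker = 3 := by
  rw [K.ker_eq, Nat.card_zpowers]
  have : Fact (Nat.Prime 3) := ⟨Nat.prime_three⟩
  exact orderOf_eq_prime K.t_cube K.t_ne

theorem ker_central {k : K.L} (hk : K.π k = 1) (g : K.L) : Commute k g := by
  obtain ⟨n, rfl⟩ := K.ker k hk
  exact Commute.zpow_left (K.t_central g) n

theorem ker_cube {k : K.L} (hk : K.π k = 1) : k ^ 3 = 1 := by
  obtain ⟨n, rfl⟩ := K.ker k hk
  show (K.t ^ n) ^ 3 = 1
  rw [← zpow_natCast (K.t ^ n), ← _root_.zpow_mul, mul_comm n, _root_.zpow_mul, zpow_natCast, K.t_cube, _root_.one_zpow]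

theorem ker_cases {k : K.L} (hk : K.π k = 1) : k = 1 ∨ k = K.t ∨ k = K.t * K.t := by
  obtain ⟨n, rfl⟩ := K.ker k hk
  have h3 : K.t ^ (3 : ℤ) = 1 := by
    rw [show (3 : ℤ) = ((3 : ℕ) : ℤ) from rfl, zpow_natCast]; exact K.t_cube
  have e : K.t ^ n = K.t ^ (n % 3) := by
    conv_lhs => rw [← Int.emod_add_mul_ediv n 3, _root_.zpow_add, _root_.zpow_mul, h3, _root_.one_zpow, mul_one]
  have h0 := Int.emod_nonneg n (by norm_num : (3 : ℤ) ≠ 0)
  have h1 := Int.emod_lt_of_pos n (by norm_num : (0 : ℤ) < 3)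
  simp only [e]
  interval_cases n % 3
  · exact Or.inl (zpow_zero _)
  · exact Or.inr (Or.inl (zpow_one _))
  · exact Or.inr (Or.inr (zpow_two _))

theorem eq_of_two {x y : K.L} (h : K.π x = K.π y) (hx : x ^ 128 = 1) (hy : y ^ 128 = 1) : x = y := by
  have hk : K.π (x * y⁻¹) = 1 := by rw [map_mul, map_inv, h, mul_inv_cancel]
  have h1 : (x * y⁻¹) ^ 128 = 1 := by
    have e := (K.ker_central hk y).mul_pow 128
    rw [inv_mul_cancel_right, hx, hy, mul_one] at e
    exact e.symm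
  have h2 : (x * y⁻¹) ^ 129 = 1 := by
    rw [show 129 = 3 * 43 from rfl, pow_mul, K.ker_cube hk, one_pow]
  rw [pow_succ, h1, one_mul] at h2
  exact mul_inv_eq_one.1 h2

/-- The lift of an element of two-power order. -/
noncomputable def σ (x : MT) : K.L := Function.surjInv K.surj x ^ 129

theorem π_σ {x : MT} (hx : x ^ 128 = 1) : K.π (K.σ x) = x := by
  rw [σ, map_pow, Function.surjInv_eq K.surj, pow_succ, hx, one_mul]

theorem σ_pow {x : MT} (hx : x ^ 128 = 1) : K.σ x ^ 128 = 1 := by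
  have hk : K.π (Function.surjInv K.surj x ^ 128) = 1 := by rw [map_pow, Function.surjInv_eq K.surj, hx]
  rw [σ, ← pow_mul, mul_comm, pow_mul, show 129 = 3 * 43 from rfl, pow_mul, K.ker_cube hk, one_pow]

theorem σ_eq {g : K.L} {x : MT} (hx : x ^ 128 = 1) (hg : K.π g = x) (h : g ^ 128 = 1) : K.σ x = g :=
  K.eq_of_two ((K.π_σ hx).trans hg.symm) (K.σ_pow hx) h

theorem σ_one : K.σ 1 = 1 := K.σ_eq (one_pow _) (map_one _) (one_pow _)

theorem σ_conj {x : MT} (hx : x ^ 128 = 1) (g : K.L) :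
    g * K.σ x * g⁻¹ = K.σ (K.π g * x * (K.π g)⁻¹) := by
  refine (K.σ_eq (by rw [conj_pow, hx]; group) ?_ (by rw [conj_pow, K.σ_pow hx]; group)).symm
  rw [map_mul, map_mul, map_inv, K.π_σ hx]

theorem syl_pow {x : MT} (hx : x ∈ sylT) : x ^ 128 = 1 := by
  have := pow_card_eq_one' (x := (⟨x, hx⟩ : sylT))
  rw [card_sylT] at this
  exact congrArg Subtype.val this

theorem six_pow {x : MT} (hx : x ∈ sixteen) : x ^ 128 = 1 := syl_pow (sixteen_le hx)

theorem σ_mul {x y : MT} (hx : x ∈ sylT) (hy : y ∈ sylT) : K.σ (x * y) = K.σ x * K.σ y := by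
  have : Fact (Nat.Prime 2) := ⟨Nat.prime_two⟩
  set U := sylT.comap K.π with hU
  have hcardU : Nat.card U = 3 * 128 := by
    have hs : Function.Surjective (K.π.subgroupComap sylT) := fun z => by
      obtain ⟨a, ha⟩ := K.surj z.1
      exact ⟨⟨a, show K.π a ∈ sylT from ha ▸ z.2⟩, Subtype.ext ha⟩
    rw [(K.π.subgroupComap sylT).ker.card_eq_card_quotient_mul_card_subgroup,
      Nat.card_congr (QuotientGroup.quotientKerEquivOfSurjective _ hs).toEquiv, card_sylT, mul_comm]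
    congr 1
    rw [← K.card_ker]
    exact Nat.card_congr
      { toFun := fun a => ⟨a.1.1, congrArg Subtype.val a.2⟩
        invFun := fun a => ⟨⟨a.1, show K.π a.1 ∈ sylT by rw [show K.π a.1 = 1 from a.2]; exact sylT.one_mem⟩,
          Subtype.ext a.2⟩
        left_inv := fun a => rfl
        right_inv := fun a => rfl }
  obtain ⟨R, hR⟩ := Sylow.exists_subgroup_card_pow_prime 2 (G := U) (n := 7) (by rw [hcardU]; norm_num)
  have hpow : ∀ r : R, ((r : U) : K.L) ^ 128 = 1 := fun r => by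
    have := pow_card_eq_one' (x := r)
    rw [hR] at this
    exact congrArg (fun r : R => ((r : U) : K.L)) this
  let f : R → sylT := fun r => ⟨K.π ((r : U) : K.L), (r : U).2⟩
  have hf : Function.Bijective f := by
    refine (Nat.bijective_iff_injective_and_card f).2 ⟨fun a b h => ?_, by rw [hR, card_sylT]; norm_num⟩
    exact Subtype.ext (Subtype.ext (K.eq_of_two (congrArg Subtype.val h) (hpow a) (hpow b)))
  obtain ⟨a, ha⟩ := hf.2 ⟨x, hx⟩
  obtain ⟨b, hb⟩ := hf.2 ⟨y, hy⟩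
  have ea : K.π ((a : U) : K.L) = x := congrArg Subtype.val ha
  have eb : K.π ((b : U) : K.L) = y := congrArg Subtype.val hb
  rw [K.σ_eq (syl_pow hx) ea (hpow a), K.σ_eq (syl_pow hy) eb (hpow b),
    K.σ_eq (syl_pow (mul_mem hx hy)) (g := ((a * b : R) : U).1) ?_ (hpow _)]
  · rfl
  · show K.π (((a : U) : K.L) * ((b : U) : K.L)) = _
    rw [map_mul, ea, eb]

/-- The lift as a homomorphism into the unitary group. -/
noncomputable def σHom : sylT →* SU6 F where
  toFun x := (K.σ x.1).1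
  map_one' := by rw [show ((1 : sylT) : MT) = 1 from rfl, K.σ_one]; rfl
  map_mul' a b := by rw [show ((a * b : sylT) : MT) = a.1 * b.1 from rfl, K.σ_mul a.2 b.2]; rfl

theorem σHom_inj : Function.Injective K.σHom := fun a b h => by
  have e : K.σ a.1 = K.σ b.1 := Subtype.ext h
  have := congrArg K.π e
  rw [K.π_σ (syl_pow a.2), K.π_σ (syl_pow b.2)] at this
  exact Subtype.ext this

/-- The Sylow subgroup upstairs. -/
noncomputable def sylS : Subgroup (SU6 F) := K.σHom.range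

/-- The elementary subgroup upstairs. -/
noncomputable def kS : Subgroup (SU6 F) := (sixteen.subgroupOf sylT).map K.σHom

theorem card_sylS : Nat.card K.sylS = 128 := by
  rw [sylS, ← Nat.card_congr (MonoidHom.ofInjective K.σHom_inj).toEquiv, card_sylT]

theorem kS_le : K.kS ≤ K.sylS := Subgroup.map_le_range _ _

theorem sylS_le : K.sylS ≤ K.L := by
  rintro _ ⟨x, rfl⟩
  exact (K.σ x.1).2

theorem card_kS : Nat.card K.kS = 16 := by
  rw [kS, Subgroup.card_map_of_injective K.σHom_inj,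
    Nat.card_congr (Subgroup.subgroupOfEquivOfLe sixteen_le).toEquiv, card_sixteen]

theorem mem_kS {g : SU6 F} : g ∈ K.kS ↔ ∃ a ∈ sixteen, g = (K.σ a).1 := by
  constructor
  · rintro ⟨x, hx, rfl⟩
    exact ⟨x.1, hx, rfl⟩
  · rintro ⟨a, ha, rfl⟩
    exact ⟨⟨a, sixteen_le ha⟩, ha, rfl⟩

theorem kS_sq {g : SU6 F} (hg : g ∈ K.kS) : g * g = 1 := by
  obtain ⟨a, ha, rfl⟩ := K.mem_kS.1 hg
  have := K.σ_mul (sixteen_le ha) (sixteen_le ha)
  rw [sixteen_sq ha, K.σ_one] at this
  exact (congrArg Subtype.val this).symm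

/-- Conjugation by a lift of a normalising element. -/
theorem conj_kS {g : K.L} (hg : ∀ c ∈ sixteen, K.π g * c * (K.π g)⁻¹ ∈ sixteen) {c : SU6 F} (hc : c ∈ K.kS) :
    g.1 * c * g.1⁻¹ ∈ K.kS := by
  obtain ⟨a, ha, rfl⟩ := K.mem_kS.1 hc
  exact K.mem_kS.2 ⟨_, hg a ha, congrArg Subtype.val (K.σ_conj (six_pow ha) g)⟩

theorem kS_trans {a b : SU6 F} (ha : a ∈ K.kS) (hb : b ∈ K.kS) (ha1 : a ≠ 1) (hb1 : b ≠ 1) :
    ∃ n ∈ K.L, (∀ c ∈ K.kS, n * c * n⁻¹ ∈ K.kS) ∧ n * a * n⁻¹ = b := by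
  obtain ⟨x, hx, rfl⟩ := K.mem_kS.1 ha
  obtain ⟨y, hy, rfl⟩ := K.mem_kS.1 hb
  obtain ⟨n, hn, e⟩ := exists_trans hx hy (fun e => ha1 (by rw [e, K.σ_one]; rfl))
    fun e => hb1 (by rw [e, K.σ_one]; rfl)
  obtain ⟨g, rfl⟩ := K.surj n
  refine ⟨g.1, g.2, fun c hc => K.conj_kS hn hc, ?_⟩
  rw [← e, ← K.σ_conj (six_pow hx) g]
  rfl

/-! ### Two lifts of commuting elements of order three that do not commute -/

theorem card_L : Nat.card K.L = 3 * 443520 := by
  rw [K.π.ker.card_eq_card_quotient_mul_card_subgroup,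
    Nat.card_congr (QuotientGroup.quotientKerEquivOfSurjective _ K.surj).toEquiv, card_MT, K.card_ker, mul_comm]

theorem lifts_ne_comm {g h : MT} (hc : g * h = h * g) (hg : g ^ 3 = 1) (hh : h ^ 3 = 1) (hg1 : g ≠ 1)
    (hh1 : h ≠ 1) (hne : h ≠ g) (hne2 : h ≠ g * g) {x y : K.L} (hx : K.π x = g) (hy : K.π y = h) :
    x * y ≠ y * x := by
  classical
  intro hcomm
  have : Fact (Nat.Prime 3) := ⟨Nat.prime_three⟩
  set U := Subgroup.closure ({x, y, K.t} : Set K.L) with hU
  have hUc : ∀ a ∈ U, ∀ b ∈ U, a * b = b * a := by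
    have hgen : ∀ a ∈ ({x, y, K.t} : Set K.L), ∀ b ∈ ({x, y, K.t} : Set K.L), a * b = b * a := by
      intro a ha b hb
      simp only [Set.mem_insert_iff, Set.mem_singleton_iff] at ha hb
      rcases ha with rfl | rfl | rfl <;> rcases hb with rfl | rfl | rfl
      all_goals first
        | rfl
        | exact hcomm
        | exact hcomm.symm
        | exact K.t_central _
        | exact (K.t_central _).symm
    have hle : U ≤ Subgroup.centralizer (U : Set K.L) := by
      rw [hU, Subgroup.closure_le]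
      intro a ha
      rw [SetLike.mem_coe, Subgroup.centralizer_closure, Subgroup.mem_centralizer_iff]
      exact fun b hb => hgen b hb a ha
    exact fun a ha b hb => Subgroup.mem_centralizer_iff.1 (hle hb) a ha
  letI : CommGroup U := { (inferInstance : Group U) with mul_comm := fun a b => Subtype.ext (hUc _ a.2 _ b.2) }
  have ht : K.t ∈ U := Subgroup.subset_closure (by simp)
  have h27 : 27 ∣ Nat.card U := by
    let f : U →* MT := K.π.comp U.subtype
    have hker : Nat.card f.ker = 3 := by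
      rw [← K.card_ker]
      exact Nat.card_congr
        { toFun := fun a => ⟨a.1.1, a.2⟩
          invFun := fun a => ⟨⟨a.1, (Subgroup.zpowers_le.2 ht) (K.ker _ a.2)⟩, a.2⟩
          left_inv := fun a => rfl
          right_inv := fun a => rfl }
    have hp : ∀ z ∈ f.range, z ^ 3 = 1 := by
      rintro _ ⟨u, rfl⟩
      have : (u : K.L) ∈ U := u.2
      show K.π u.1 ^ 3 = 1
      generalize (u : K.L) = v at this
      induction this using Subgroup.closure_induction with
      | mem v hv =>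
        simp only [Set.mem_insert_iff, Set.mem_singleton_iff] at hv
        rcases hv with rfl | rfl | rfl
        · rw [hx, hg]
        · rw [hy, hh]
        · rw [K.t_map, one_pow]
      | one => rw [map_one, one_pow]
      | mul a b ha hb iha ihb =>
        have hab : K.π a * K.π b = K.π b * K.π a := by rw [← map_mul, hUc a ha b hb, map_mul]
        rw [map_mul, (show Commute (K.π a) (K.π b) from hab).mul_pow, iha, ihb, one_mul]
      | inv a _ iha => rw [map_inv, inv_pow, iha, inv_one]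
    have hpg : IsPGroup 3 f.range := fun z => ⟨1, Subtype.ext (by rw [pow_one]; exact hp z.1 z.2)⟩
    obtain ⟨k, hk⟩ := IsPGroup.iff_card.1 hpg
    have h4 : 4 ≤ Nat.card f.range := by
      have hgm : g ∈ f.range := ⟨⟨x, Subgroup.subset_closure (by simp)⟩, hx⟩
      have hhm : h ∈ f.range := ⟨⟨y, Subgroup.subset_closure (by simp)⟩, hy⟩
      have hgg : g * g ≠ g := fun e => hg1 (mul_eq_left.1 e)
      have hgg1 : g * g ≠ 1 := fun e => hg1 (by rw [pow_three, e, mul_one] at hg; exact hg)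
      have hs : ({1, g, g * g, h} : Finset MT).card = 4 := by
        rw [Finset.card_insert_of_notMem (by simp [hg1.symm, hgg1.symm, hh1.symm]),
          Finset.card_insert_of_notMem (by simp [hgg.symm, hne.symm]),
          Finset.card_pair hne2.symm]
      have : Fintype f.range := Fintype.ofFinite _
      rw [← hs, ← Nat.card_eq_finsetCard]
      refine Nat.card_le_card_of_injective (fun z => (⟨z.1, ?_⟩ : f.range)) fun a b e =>
        Subtype.ext (congrArg Subtype.val e :)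
      have hz := z.2
      simp only [Finset.mem_insert, Finset.mem_singleton] at hz
      rcases hz with e | e | e | e <;> rw [e]
      · exact one_mem _
      · exact hgm
      · exact mul_mem hgm hgm
      · exact hhm
    have hk2 : 2 ≤ k := by
      by_contra hlt
      interval_cases k <;> simp_all
    rw [f.ker.card_eq_card_quotient_mul_card_subgroup,
      Nat.card_congr (QuotientGroup.quotientKerEquivRange f).toEquiv, hker, hk]
    exact (show 27 = 3 ^ 2 * 3 from rfl) ▸ Nat.mul_dvd_mul_right (pow_dvd_pow 3 hk2) 3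
  have hidx : ¬ 3 ∣ U.index := by
    intro h3
    have := Nat.mul_dvd_mul h27 h3
    rw [U.card_mul_index, K.card_L] at this
    norm_num at this
  let T := (MonoidHom.id U).transfer
  have hT : T K.t = 1 := Abelianization.commutator_subset_ker T K.t_comm
  have hpow := MonoidHom.transfer_eq_pow (MonoidHom.id U) K.t fun k g₀ _ => by
    rw [mul_assoc, (Commute.pow_left (K.t_central g₀) k).eq, inv_mul_cancel_left]
  rw [show T K.t = _ from hpow] at hT
  have : K.t ^ U.index = 1 := congrArg Subtype.val hT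
  exact hidx ((orderOf_eq_prime K.t_cube K.t_ne) ▸ orderOf_dvd_of_pow_eq_one this)

theorem exists_scalar_pair : ∃ x y : K.L, ∃ c : F,
    (∀ a ∈ sixteen, K.π x * a * (K.π x)⁻¹ ∈ sixteen) ∧ (∀ a ∈ sixteen, K.π y * a * (K.π y)⁻¹ ∈ sixteen) ∧
      orderOf c = 3 ∧ ∀ v, mat x.1 *ᵥ (mat y.1 *ᵥ v) = c • (mat y.1 *ᵥ (mat x.1 *ᵥ v)) := by
  have : Fact (Nat.Prime 3) := ⟨Nat.prime_three⟩
  obtain ⟨g, h, hgn, hhn, hc, hg, hh, hg1, hh1, hne, hne2⟩ := exists_three
  obtain ⟨x, rfl⟩ := K.surj g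
  obtain ⟨y, rfl⟩ := K.surj h
  have hk : K.π (x * y * (y * x)⁻¹) = 1 := by rw [map_mul, map_inv, map_mul, map_mul, hc, mul_inv_cancel]
  have h0 := om_ne_zero (F := F)
  have o1 : orderOf (om : F) = 3 :=
    orderOf_eq_prime (by rw [pow_three, ← mul_assoc, cube_eq_one h0]) om_ne_one
  rcases K.ker_cases hk with e | e | e
  · exact absurd (mul_inv_eq_one.1 e) (K.lifts_ne_comm hc hg hh hg1 hh1 hne hne2 rfl rfl)
  · rw [mul_inv_eq_iff_eq_mul] at e
    refine ⟨x, y, om, hgn, hhn, o1, fun v => ?_⟩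
    rw [← K.act_mul, e, K.act_mul, K.t_act, K.act_mul]
  · rw [mul_inv_eq_iff_eq_mul] at e
    refine ⟨x, y, om * om, hgn, hhn, orderOf_eq_prime ?_ ?_, fun v => ?_⟩
    · rw [pow_three, ← mul_assoc, cube_eq_one (mul_ne_zero h0 h0)]
    · intro e'
      exact h0 (by linear_combination e' - hom (F := F))
    · rw [← K.act_mul, e, K.act_mul, K.act_mul K.t K.t, K.t_act, K.t_act, smul_smul, K.act_mul]

/-! ### Fixed spaces -/

/-- The linear map of a member. -/
noncomputable def lin (g : K.L) : Vec F →ₗ[F] Vec F := Matrix.toLin' (mat g.1)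

theorem lin_apply (g : K.L) (v : Vec F) : K.lin g v = mat g.1 *ᵥ v := rfl

theorem lin_injective (g : K.L) : Function.Injective (K.lin g) := fun u v h => by
  have := congrArg (fun w => mat (g⁻¹).1 *ᵥ w) h
  simp only [lin_apply, ← K.act_mul, inv_mul_cancel, K.act_one] at this
  exact this

/-- The map moving vectors by an involution. -/
noncomputable def mv (g : K.L) : Vec F →ₗ[F] Vec F := K.lin g + LinearMap.id

theorem mv_apply (g : K.L) (v : Vec F) : K.mv g v = mat g.1 *ᵥ v + v := rfl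

/-- The fixed vectors of a member. -/
noncomputable def fx (g : K.L) : Submodule F (Vec F) := LinearMap.ker (K.mv g)

theorem mem_fx {g : K.L} {v : Vec F} : v ∈ K.fx g ↔ mat g.1 *ᵥ v = v := by
  rw [fx, LinearMap.mem_ker, mv_apply]
  exact ⟨fun h => (eq_neg_of_add_eq_zero_left h).trans (neg_vec v), fun h => by rw [h, add_self_vec]⟩

theorem six_sq {a : MT} (ha : a ∈ sixteen) : K.σ a * K.σ a = 1 := by
  rw [← K.σ_mul (sixteen_le ha) (sixteen_le ha), sixteen_sq ha, K.σ_one]

theorem six_comm {a b : MT} (ha : a ∈ sixteen) (hb : b ∈ sixteen) : a * b = b * a := by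
  rw [← inv_eq_of_mul_eq_one_right (sixteen_sq (mul_mem ha hb)), _root_.mul_inv_rev,
    inv_eq_of_mul_eq_one_right (sixteen_sq ha), inv_eq_of_mul_eq_one_right (sixteen_sq hb)]

theorem σ_six_comm {a b : MT} (ha : a ∈ sixteen) (hb : b ∈ sixteen) : K.σ a * K.σ b = K.σ b * K.σ a := by
  rw [← K.σ_mul (sixteen_le ha) (sixteen_le hb), ← K.σ_mul (sixteen_le hb) (sixteen_le ha), six_comm ha hb]

theorem herm_mv {g : K.L} (hg : g * g = 1) (u w : Vec F) :
    hermForm 6 F 2 (K.mv g u) w = hermForm 6 F 2 u (K.mv g w) :=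
  herm_invol (g := g.1) (congrArg Subtype.val hg) u w

/-- The fixed space of the elementary subgroup. -/
noncomputable def wM : Submodule F (Vec F) where
  carrier := {v | ∀ a ∈ sixteen, mat (K.σ a).1 *ᵥ v = v}
  zero_mem' a _ := Matrix.mulVec_zero _
  add_mem' {u v} hu hv a ha := by rw [Matrix.mulVec_add, hu a ha, hv a ha]
  smul_mem' c v hv a ha := by rw [Matrix.mulVec_smul, hv a ha]

theorem wM_inv {g : K.L} (hg : ∀ c ∈ sixteen, K.π g * c * (K.π g)⁻¹ ∈ sixteen) {v : Vec F} (hv : v ∈ K.wM) :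
    mat g.1 *ᵥ v ∈ K.wM := by
  intro a ha
  have hm := inv_norm_sixteen hg ha
  have e := K.σ_conj (six_pow hm) g
  rw [show K.π g * ((K.π g)⁻¹ * a * K.π g) * (K.π g)⁻¹ = a by group] at e
  rw [← e, ← K.act_mul, inv_mul_cancel_right, K.act_mul, hv _ hm]

/-- The vectors orthogonal to the fixed space. -/
noncomputable def wP : Submodule F (Vec F) where
  carrier := {v | ∀ w ∈ K.wM, hermForm 6 F 2 v w = 0}
  zero_mem' w _ := by simp [hermForm]
  add_mem' {u v} hu hv w hw := by rw [herm_add_left, hu w hw, hv w hw, add_zero]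
  smul_mem' c v hv w hw := by rw [herm_smul_left, hv w hw, mul_zero]

theorem wP_inv {g : K.L} (hg : ∀ c ∈ sixteen, K.π g * c * (K.π g)⁻¹ ∈ sixteen) {v : Vec F} (hv : v ∈ K.wP) :
    mat g.1 *ᵥ v ∈ K.wP := by
  intro w hw
  have hg' : ∀ c ∈ sixteen, K.π g⁻¹ * c * (K.π g⁻¹)⁻¹ ∈ sixteen := fun c hc => by
    rw [map_inv, inv_inv]; exact inv_norm_sixteen hg hc
  have := hv _ (K.wM_inv hg' hw)
  rw [← herm_mulVec g.1, ← K.act_mul, mul_inv_cancel, K.act_one] at this
  exact this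

theorem exists_fixed (U : Submodule F (Vec F)) (hU : U ≠ ⊥)
    (hinv : ∀ a ∈ sixteen, ∀ v ∈ U, mat (K.σ a).1 *ᵥ v ∈ U) : ∃ v ∈ U, v ∈ K.wM ∧ v ≠ 0 := by
  classical
  have : Fact (Nat.Prime 2) := ⟨Nat.prime_two⟩
  letI : MulAction sixteen U :=
    { smul := fun a u => ⟨mat (K.σ a.1).1 *ᵥ u.1, hinv a.1 a.2 u.1 u.2⟩
      one_smul := fun u => Subtype.ext (by
        show mat (K.σ 1).1 *ᵥ u.1 = u.1
        rw [K.σ_one, K.act_one])
      mul_smul := fun a b u => Subtype.ext (by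
        show mat (K.σ (a.1 * b.1)).1 *ᵥ u.1 = mat (K.σ a.1).1 *ᵥ (mat (K.σ b.1).1 *ᵥ u.1)
        rw [K.σ_mul (sixteen_le a.2) (sixteen_le b.2), K.act_mul]) }
  have hp : IsPGroup 2 sixteen := IsPGroup.of_card (n := 4) (by rw [card_sixteen]; norm_num)
  have hmod := hp.card_modEq_card_fixedPoints U
  have h2 : 2 ∣ Nat.card U := by
    rw [Module.natCard_eq_pow_finrank (K := F), Nat.card_eq_fintype_card, Setup.card]
    exact dvd_pow (by norm_num) fun e => hU (Submodule.finrank_eq_zero.1 e)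
  have h0 : (0 : U) ∈ MulAction.fixedPoints sixteen U := fun a => Subtype.ext (show mat (K.σ a.1).1 *ᵥ (0 : Vec F) = 0 from Matrix.mulVec_zero _)
  obtain ⟨v, hv⟩ : ∃ v : MulAction.fixedPoints sixteen U, v ≠ ⟨0, h0⟩ := by
    by_contra hcon
    push Not at hcon
    have h1 : Nat.card (MulAction.fixedPoints sixteen U) = 1 :=
      Nat.card_eq_one_iff_unique.2 ⟨⟨fun a b => (hcon a).trans (hcon b).symm⟩, ⟨⟨0, h0⟩⟩⟩
    rw [h1] at hmod
    have := Nat.ModEq.dvd_iff hmod dvd_rfl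
    exact absurd (this.1 h2) (by norm_num)
  refine ⟨v.1.1, v.1.2, fun a ha => congrArg Subtype.val (v.2 ⟨a, ha⟩), fun e => hv ?_⟩
  exact Subtype.ext (Subtype.ext e)

theorem exists_ne_one : ∃ a ∈ sixteen, a ≠ (1 : MT) := by
  have : Nontrivial sixteen := Finite.one_lt_card_iff_nontrivial.1 (by rw [card_sixteen]; norm_num)
  obtain ⟨a, ha⟩ := exists_ne (1 : sixteen)
  exact ⟨a.1, a.2, fun e => ha (Subtype.ext e)⟩

theorem σ_ne_one {a : MT} (ha : a ^ 128 = 1) (h : a ≠ 1) : K.σ a ≠ 1 := fun e => h (by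
  rw [← K.π_σ ha, e, map_one])

theorem card_four_pow (U : Submodule F (Vec F)) : Nat.card U = 4 ^ Module.finrank F U := by
  rw [Module.natCard_eq_pow_finrank (K := F), Nat.card_eq_fintype_card (α := F), Setup.card]

/-- The fixed space is a totally singular three-space equal to its orthogonal complement. -/
theorem wM_facts : Module.finrank F K.wM = 3 ∧ (∀ w ∈ K.wM, hermForm 6 F 2 w w = 0) ∧
    ∀ v, (∀ w ∈ K.wM, hermForm 6 F 2 v w + hermForm 6 F 2 v w ^ 2 = 0) → v ∈ K.wM := by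
  classical
  set R := K.wM ⊓ K.wP with hR
  have hsing : ∀ r ∈ R.toAddSubgroup, hermForm 6 F 2 r r = 0 := fun r hr => hr.2 r hr.1
  obtain ⟨hle, hperp⟩ := singular_facts R.toAddSubgroup hsing
  have hne : R ≠ ⊥ := by
    obtain ⟨a, ha, ha1⟩ := exists_ne_one
    have hP : K.wP ≠ ⊥ := by
      obtain ⟨v, hv⟩ : ∃ v, K.mv (K.σ a) v ≠ 0 := by
        by_contra hcon
        push Not at hcon
        refine K.σ_ne_one (six_pow ha) ha1 (K.act_inj fun v => ?_)
        rw [K.act_one, ← K.mem_fx]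
        exact hcon v
      rw [Submodule.ne_bot_iff]
      refine ⟨_, fun w hw => ?_, hv⟩
      rw [K.herm_mv (K.six_sq ha), LinearMap.mem_ker.1 (K.mem_fx.2 (hw a ha))]
      simp [hermForm]
    obtain ⟨v, hv, hv', hv0⟩ := K.exists_fixed K.wP hP fun b hb u hu => K.wP_inv (fun c hc => by
      rw [K.π_σ (six_pow hb), six_comm hb hc, mul_inv_cancel_right]; exact hc) hu
    rw [Submodule.ne_bot_iff]
    exact ⟨v, ⟨hv', hv⟩, hv0⟩
  obtain ⟨x, y, c, hx, hy, hc, hxy⟩ := K.exists_scalar_pair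
  have hinv : ∀ g : K.L, (∀ c ∈ sixteen, K.π g * c * (K.π g)⁻¹ ∈ sixteen) → ∀ v ∈ R, K.lin g v ∈ R :=
    fun g hg v hv => ⟨K.wM_inv hg hv.1, K.wP_inv hg hv.2⟩
  let X : R →ₗ[F] R := (K.lin x).restrict (hinv x hx)
  let Y : R →ₗ[F] R := (K.lin y).restrict (hinv y hy)
  have hXY : X ∘ₗ Y = c • (Y ∘ₗ X) := LinearMap.ext fun v => Subtype.ext (hxy v.1)
  have hdet := congrArg LinearMap.det hXY
  rw [LinearMap.det_smul, LinearMap.det_comp, LinearMap.det_comp] at hdet
  have hu : ∀ Z : R →ₗ[F] R, Function.Injective Z → LinearMap.det Z ≠ 0 := fun Z hZ e =>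
    absurd (LinearMap.det_eq_zero_iff_ker_ne_bot.1 e) (not_not.2 (LinearMap.ker_eq_bot.2 hZ))
  have hX : LinearMap.det X ≠ 0 := hu X fun a b h => Subtype.ext (K.lin_injective x (congrArg Subtype.val h))
  have hY : LinearMap.det Y ≠ 0 := hu Y fun a b h => Subtype.ext (K.lin_injective y (congrArg Subtype.val h))
  have hcd : c ^ Module.finrank F R = 1 := by
    refine mul_right_cancel₀ (mul_ne_zero hY hX) ?_
    rw [one_mul, ← hdet, mul_comm]
  have h3 : 3 ∣ Module.finrank F R := hc ▸ orderOf_dvd_of_pow_eq_one hcd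
  have hpos : 0 < Module.finrank F R := Nat.pos_of_ne_zero fun e => hne (Submodule.finrank_eq_zero.1 e)
  have hcardR : Nat.card R.toAddSubgroup = 4 ^ Module.finrank F R := card_four_pow R
  have hle3 : Module.finrank F R ≤ 3 := by
    rw [hcardR, show (64 : ℕ) = 4 ^ 3 by norm_num] at hle
    exact (Nat.pow_le_pow_iff_right (by norm_num)).1 hle
  have hR3 : Module.finrank F R = 3 := by
    obtain ⟨k, hk⟩ := h3
    omega
  have hperp' := hperp (by rw [hcardR, hR3]; norm_num)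
  have heq : R = K.wM := le_antisymm inf_le_left fun w hw => hperp' w fun r hr => by
    rw [herm_zero_comm (hr.2 w hw)]; norm_num
  refine ⟨heq ▸ hR3, fun w hw => hsing w (heq.symm ▸ hw : w ∈ R), fun v hv => ?_⟩
  exact heq ▸ hperp' v fun w hw => hv w hw.1

theorem wM_iso {w : Vec F} (hw : w ∈ K.wM) : hermForm 6 F 2 w w = 0 := K.wM_facts.2.1 w hw

theorem wP_le : K.wP ≤ K.wM := fun v hv => K.wM_facts.2.2 v fun w hw => by
  rw [hv w hw]; norm_num

theorem wM_perp {v : Vec F}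
    (h : ∀ w ∈ K.wM, hermForm 6 F 2 (v + w) (v + w) = 0 ↔ hermForm 6 F 2 v v = 0) : v ∈ K.wM := by
  refine K.wM_facts.2.2 v fun w hw => ?_
  have e := herm_add_self v w
  rw [K.wM_iso hw, add_zero] at e
  have hs : ∀ u : Vec F, hermForm 6 F 2 u u ^ 2 = hermForm 6 F 2 u u := fun u => (herm_symm u u).symm
  have hw' := h w hw
  rcases zero_or_one (hs v) with h0 | h1
  · rw [h0, zero_add] at e
    rw [← e]; exact hw'.2 h0
  · rcases zero_or_one (hs (v + w)) with h2 | h2
    · exact absurd (h1.symm.trans (hw'.1 h2)) one_ne_zero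
    · rw [h1, h2] at e
      linear_combination -e

theorem ncard_wM : Nat.card K.wM = 64 := by rw [card_four_pow, K.wM_facts.1]; norm_num

theorem wM_le_fx {a : MT} (ha : a ∈ sixteen) : K.wM ≤ K.fx (K.σ a) := fun _ hv => K.mem_fx.2 (hv a ha)

theorem fx_map {a : MT} (ha : a ^ 128 = 1) (g : K.L) {v : Vec F} (hv : v ∈ K.fx (K.σ a)) :
    K.lin g v ∈ K.fx (K.σ (K.π g * a * (K.π g)⁻¹)) := by
  rw [mem_fx] at hv ⊢
  rw [← K.σ_conj ha g, lin_apply, ← K.act_mul, inv_mul_cancel_right, K.act_mul, hv]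

theorem finrank_fx_lt {a : MT} (ha : a ^ 128 = 1) (h : a ≠ 1) : Module.finrank F (K.fx (K.σ a)) < 6 := by
  have htop : K.fx (K.σ a) ≠ ⊤ := fun e => K.σ_ne_one ha h (K.act_inj fun v => by
    rw [K.act_one, ← K.mem_fx, e]; trivial)
  have := Submodule.finrank_lt htop
  rwa [Module.finrank_fin_fun] at this

theorem finrank_fx_six {a : MT} (ha : a ∈ sixteen) (h : a ≠ 1) : Module.finrank F (K.fx (K.σ a)) ≤ 4 := by
  classical
  by_contra hgt
  push Not at hgt
  have hall : ∀ b ∈ sixteen, b ≠ 1 → Module.finrank F (K.fx (K.σ b)) = 5 := by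
    intro b hb hb1
    obtain ⟨n, -, e⟩ := exists_trans ha hb h hb1
    obtain ⟨g, rfl⟩ := K.surj n
    have hmono := LinearMap.finrank_le_finrank_of_injective
      (f := (K.lin g).restrict (p := K.fx (K.σ a)) (q := K.fx (K.σ b))
        (fun v hv => by rw [← e]; exact K.fx_map (six_pow ha) g hv))
      (fun u v huv => Subtype.ext (K.lin_injective g (congrArg Subtype.val huv)))
    have := K.finrank_fx_lt (six_pow hb) hb1
    omega
  obtain ⟨b, hb, hb1, hne⟩ : ∃ b ∈ sixteen, b ≠ 1 ∧ K.fx (K.σ b) ≠ K.fx (K.σ a) := by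
    by_contra hcon
    push Not at hcon
    have hle : K.fx (K.σ a) ≤ K.wM := fun v hv b hb => by
      rcases eq_or_ne b 1 with rfl | hb1
      · rw [K.σ_one, K.act_one]
      · exact K.mem_fx.1 (by rw [hcon b hb hb1]; exact hv)
    have := Submodule.finrank_mono hle
    rw [K.wM_facts.1, hall a ha h] at this
    omega
  obtain ⟨u, hua, hub⟩ := SetLike.not_le_iff_exists.1 fun hle : K.fx (K.σ a) ≤ K.fx (K.σ b) =>
    hne (Submodule.eq_of_le_of_finrank_le hle (by rw [hall a ha h, hall b hb hb1])).symm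
  obtain ⟨v, hvb, hva⟩ := SetLike.not_le_iff_exists.1 fun hle : K.fx (K.σ b) ≤ K.fx (K.σ a) =>
    hne (Submodule.eq_of_le_of_finrank_le hle (by rw [hall a ha h, hall b hb hb1]))
  have hab : a * b ≠ 1 := fun e => hne (by
    rw [← inv_eq_of_mul_eq_one_right e, inv_eq_of_mul_eq_one_right (sixteen_sq ha)])
  have hrk : ∀ c ∈ sixteen, c ≠ 1 → Module.finrank F (LinearMap.range (K.mv (K.σ c))) = 1 := by
    intro c hc hc1
    have := LinearMap.finrank_range_add_finrank_ker (K.mv (K.σ c))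
    rw [show LinearMap.ker (K.mv (K.σ c)) = K.fx (K.σ c) from rfl, hall c hc hc1, Module.finrank_fin_fun] at this
    omega
  set x := K.mv (K.σ a) v with hx
  set y := K.mv (K.σ b) u with hy
  have hx0 : x ≠ 0 := fun e => hva e
  have hy0 : y ≠ 0 := fun e => hub e
  have hxm : K.mv (K.σ (a * b)) v = x := by
    rw [hx, mv_apply, mv_apply, K.σ_mul (sixteen_le ha) (sixteen_le hb), K.act_mul, K.mem_fx.1 hvb]
  have hym : K.mv (K.σ (a * b)) u = y := by
    rw [hy, mv_apply, mv_apply, six_comm ha hb, K.σ_mul (sixteen_le hb) (sixteen_le ha), K.act_mul, K.mem_fx.1 hua]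
  obtain ⟨c, hc⟩ : ∃ c : F, c • x = y := by
    have h1 := (finrank_eq_one_iff_of_nonzero' (⟨x, v, hxm⟩ : LinearMap.range (K.mv (K.σ (a * b))))
      fun e => hx0 (congrArg Subtype.val e)).1 (hrk _ (mul_mem ha hb) hab) ⟨y, u, hym⟩
    obtain ⟨c, hc⟩ := h1
    exact ⟨c, congrArg Subtype.val hc⟩
  have hyu : hermForm 6 F 2 y u = 0 := by
    rw [← hc, herm_smul_left, hx, K.herm_mv (K.six_sq ha), LinearMap.mem_ker.1 hua]
    simp [hermForm]
  refine hy0 (herm_nondeg fun z => ?_)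
  obtain ⟨d, hd⟩ := (finrank_eq_one_iff_of_nonzero' (⟨y, u, rfl⟩ : LinearMap.range (K.mv (K.σ b)))
      fun e => hy0 (congrArg Subtype.val e)).1 (hrk b hb hb1) ⟨K.mv (K.σ b) z, z, rfl⟩
  rw [hy, ← K.herm_mv (K.six_sq hb), ← show d • y = K.mv (K.σ b) z from congrArg Subtype.val hd,
    herm_smul_left, hyu, mul_zero]

theorem fx_pair {a b : MT} (ha : a ∈ sixteen) (hb : b ∈ sixteen) (ha1 : a ≠ 1) (hb1 : b ≠ 1) {c d : MT}
    (hca : c * a = a * c) (hdb : d * b = b * d) (hx : c * b * c⁻¹ ∈ sixteen) (hy : d * a * d⁻¹ ∈ sixteen)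
    (hgen : ∀ H : Subgroup MT, a ∈ H → b ∈ H → c * b * c⁻¹ ∈ H → d * a * d⁻¹ ∈ H → sixteen ≤ H) :
    K.fx (K.σ a) ⊓ K.fx (K.σ b) = K.wM := by
  have hle : K.wM ≤ K.fx (K.σ a) ⊓ K.fx (K.σ b) := le_inf (K.wM_le_fx ha) (K.wM_le_fx hb)
  refine (Submodule.eq_of_le_of_finrank_le hle ?_).symm
  rw [K.wM_facts.1]
  by_contra hgt
  push Not at hgt
  set U := K.fx (K.σ a) ⊓ K.fx (K.σ b) with hU
  have hUa : U = K.fx (K.σ a) := Submodule.eq_of_le_of_finrank_le inf_le_left
    (le_trans (K.finrank_fx_six ha ha1) (by omega))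
  have hUb : U = K.fx (K.σ b) := Submodule.eq_of_le_of_finrank_le inf_le_right
    (le_trans (K.finrank_fx_six hb hb1) (by omega))
  let H : Subgroup MT :=
    { carrier := {x | x ∈ sylT ∧ ∀ u ∈ U, mat (K.σ x).1 *ᵥ u = u}
      one_mem' := ⟨one_mem _, fun u _ => by rw [K.σ_one, K.act_one]⟩
      mul_mem' := fun {p q} hp hq => ⟨mul_mem hp.1 hq.1, fun u hu => by
        rw [K.σ_mul hp.1 hq.1, K.act_mul, hq.2 u hu, hp.2 u hu]⟩
      inv_mem' := fun {p} hp => ⟨inv_mem hp.1, fun u hu => by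
        conv_lhs => rw [← hp.2 u hu]
        rw [← K.act_mul, ← K.σ_mul (inv_mem hp.1) hp.1, inv_mul_cancel, K.σ_one, K.act_one]⟩ }
  have haH : a ∈ H := ⟨sixteen_le ha, fun u hu => K.mem_fx.1 hu.1⟩
  have hbH : b ∈ H := ⟨sixteen_le hb, fun u hu => K.mem_fx.1 hu.2⟩
  have key : ∀ p q r : MT, p ∈ sixteen → q ∈ H → r * p = p * r → r * q * r⁻¹ ∈ sixteen →
      U = K.fx (K.σ p) → r * q * r⁻¹ ∈ H := by
    intro p q r hp hq hrp hm hUp
    refine ⟨sixteen_le hm, fun u hu => ?_⟩
    obtain ⟨g, rfl⟩ := K.surj r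
    rw [← K.σ_conj (syl_pow hq.1) g, K.act_mul, K.act_mul]
    have hmem : mat (g⁻¹).1 *ᵥ u ∈ U := by
      rw [hUp] at hu ⊢
      have := K.fx_map (six_pow hp) g⁻¹ hu
      rwa [map_inv, inv_inv, mul_assoc, ← hrp, inv_mul_cancel_left] at this
    rw [hq.2 _ hmem, ← K.act_mul, mul_inv_cancel, K.act_one]
  have hall := hgen H haH hbH (key a b c ha hbH hca hx hUa) (key b a d hb haH hdb hy hUb)
  have : Module.finrank F U ≤ 3 := by
    rw [← K.wM_facts.1]
    exact Submodule.finrank_mono fun u hu x hx => (hall hx).2 u hu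
  omega

/-- The shapes of elementary subgroups of the Sylow subgroup. -/
theorem elementary_cases (R : Subgroup (SU6 F)) (hR : R ≤ K.sylS) (h2 : ∀ r ∈ R, r * r = 1) :
    R = K.kS ∨ Nat.card R ≤ 8 ∨
      (Nat.card R = 16 ∧ {v : Vec F | ∀ r ∈ R, mat r *ᵥ v = v}.ncard < 64) := by
  classical
  have : Fact (Nat.Prime 2) := ⟨Nat.prime_two⟩
  set B : Subgroup sylT := R.comap K.σHom with hB
  have hmap : B.map K.σHom = R := Subgroup.map_comap_eq_self hR
  have hcard : Nat.card R = Nat.card B := by rw [← hmap, Subgroup.card_map_of_injective K.σHom_inj]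
  have hdvd : Nat.card B ∣ 2 ^ 7 := by
    have := B.card_subgroup_dvd_card
    rwa [card_sylT] at this
  obtain ⟨k, -, hk⟩ := (Nat.dvd_prime_pow Nat.prime_two).1 hdvd
  have hBsq : ∀ x ∈ B, x * x = 1 := fun x hx => K.σHom_inj (by rw [map_mul, map_one]; exact h2 _ hx)
  set A' := sixteen.subgroupOf sylT with hA'
  have hA'card : Nat.card A' = 16 := by
    rw [hA', Nat.card_congr (Subgroup.subgroupOfEquivOfLe sixteen_le).toEquiv, card_sixteen]
  by_cases hBA : B ≤ A'
  · have hle := Subgroup.card_le_of_le hBA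
    rcases lt_or_ge (Nat.card B) 16 with hlt | hge
    · refine Or.inr (Or.inl ?_)
      rw [hcard, hk]
      rw [hk, show (16 : ℕ) = 2 ^ 4 by norm_num, Nat.pow_lt_pow_iff_right (by norm_num)] at hlt
      exact le_trans (Nat.pow_le_pow_right (by norm_num) (show k ≤ 3 by omega)) (by norm_num)
    · left
      rw [← hmap, Subgroup.eq_of_le_of_card_ge hBA (by omega)]
      rfl
  obtain ⟨s, hsB, hsA⟩ := SetLike.not_le_iff_exists.1 hBA
  obtain ⟨a, b, ha, hb, ha1, hb1, hab, hC, c, d, hca, hdb, hx, hy, hgen⟩ :=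
    outside s.2 hsA (congrArg Subtype.val (hBsq s hsB))
  have hBcomm : ∀ x ∈ B, ∀ y ∈ B, x * y = y * x := fun x hx y hy => by
    rw [← inv_eq_of_mul_eq_one_right (hBsq _ (mul_mem hx hy)), _root_.mul_inv_rev,
      inv_eq_of_mul_eq_one_right (hBsq _ hx), inv_eq_of_mul_eq_one_right (hBsq _ hy)]
  let a' : sylT := ⟨a, sixteen_le ha⟩
  let b' : sylT := ⟨b, sixteen_le hb⟩
  have hinf : ((B ⊓ A' : Subgroup sylT) : Set sylT) ⊆ ({1, a', b', a' * b'} : Finset sylT) := by
    rintro x ⟨hxB, hxA⟩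
    have := hC x.1 hxA (congrArg Subtype.val (hBcomm s hsB x hxB))
    simp only [Finset.coe_insert, Finset.coe_singleton, Set.mem_insert_iff, Set.mem_singleton_iff]
    rcases this with e | e | e | e
    · exact Or.inl (Subtype.ext e)
    · exact Or.inr (Or.inl (Subtype.ext e))
    · exact Or.inr (Or.inr (Or.inl (Subtype.ext e)))
    · exact Or.inr (Or.inr (Or.inr (Subtype.ext e)))
  have hinf4 : Nat.card ↥(B ⊓ A') ≤ 4 := by
    show Nat.card ↥((B ⊓ A' : Subgroup sylT) : Set sylT) ≤ 4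
    rw [Nat.card_coe_set_eq]
    refine (Set.ncard_le_ncard hinf (Finset.finite_toSet _)).trans ?_
    rw [Set.ncard_coe_finset]
    exact Finset.card_le_four
  have hAn : A'.Normal := ⟨fun x hx g => conj_sixteen g.2 hx⟩
  let f : B →* sylT ⧸ A' := (QuotientGroup.mk' A').comp B.subtype
  have hfk : Nat.card f.ker = Nat.card ↥(B ⊓ A') := Nat.card_congr
    { toFun := fun x => ⟨x.1.1, x.1.2, (QuotientGroup.eq_one_iff _).1 x.2⟩
      invFun := fun x => ⟨⟨x.1, x.2.1⟩, (QuotientGroup.eq_one_iff _).2 x.2.2⟩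
      left_inv := fun x => rfl
      right_inv := fun x => rfl }
  have hq : Nat.card (sylT ⧸ A') = 8 := by
    have := A'.card_eq_card_quotient_mul_card_subgroup
    rw [card_sylT, hA'card] at this
    omega
  have hrange : Nat.card f.range ≤ 4 := by
    have hd : Nat.card f.range ∣ 2 ^ 3 := by
      have := f.range.card_subgroup_dvd_card
      rwa [hq] at this
    obtain ⟨j, hj, hje⟩ := (Nat.dvd_prime_pow Nat.prime_two).1 hd
    rcases Nat.lt_or_ge j 3 with hj3 | hj3
    · rw [hje]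
      exact le_trans (Nat.pow_le_pow_right (by norm_num) (show j ≤ 2 by omega)) (by norm_num)
    exfalso
    have htop : f.range = ⊤ := Subgroup.eq_top_of_card_eq _ (by rw [hje, hq, show j = 3 by omega]; norm_num)
    obtain ⟨x, hx, y, hy, hne⟩ := exists_nonComm
    obtain ⟨p, hp⟩ := (show QuotientGroup.mk' A' ⟨x, hx⟩ ∈ f.range by rw [htop]; trivial)
    obtain ⟨q, hq'⟩ := (show QuotientGroup.mk' A' ⟨y, hy⟩ ∈ f.range by rw [htop]; trivial)
    have hpq : f p * f q * (f p)⁻¹ * (f q)⁻¹ = 1 := by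
      rw [← map_inv, ← map_inv, ← map_mul, ← map_mul, ← map_mul,
        show p * q * p⁻¹ * q⁻¹ = 1 from Subtype.ext (by
          show p.1 * q.1 * p.1⁻¹ * q.1⁻¹ = 1
          rw [hBcomm _ p.2 _ q.2]; group), map_one]
    rw [hp, hq', ← map_inv, ← map_inv, ← map_mul, ← map_mul, ← map_mul] at hpq
    have hm := hpq
    rw [← MonoidHom.mem_ker, QuotientGroup.ker_mk', hA', Subgroup.mem_subgroupOf, Subgroup.coe_mul, Subgroup.coe_mul, Subgroup.coe_mul, Subgroup.coe_inv,
      Subgroup.coe_inv] at hm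
    exact hne hm
  have hBcard : Nat.card B = Nat.card f.range * Nat.card ↥(B ⊓ A') := by
    rw [f.ker.card_eq_card_quotient_mul_card_subgroup,
      Nat.card_congr (QuotientGroup.quotientKerEquivRange f).toEquiv, hfk]
  rcases Nat.lt_or_ge (Nat.card B) 16 with hlt | hge
  · refine Or.inr (Or.inl ?_)
    rw [hcard, hk]
    rw [hk, show (16 : ℕ) = 2 ^ 4 by norm_num, Nat.pow_lt_pow_iff_right (by norm_num)] at hlt
    exact le_trans (Nat.pow_le_pow_right (by norm_num) (show k ≤ 3 by omega)) (by norm_num)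
  have hmul := Nat.mul_le_mul hrange hinf4
  have h16 : Nat.card B = 16 := by omega
  refine Or.inr (Or.inr ⟨hcard.trans h16, ?_⟩)
  have hinfeq : Nat.card ↥(B ⊓ A') = 4 := by
    have : Nat.card f.range * Nat.card ↥(B ⊓ A') = 16 := hBcard.symm.trans h16
    nlinarith
  have hseteq : ((B ⊓ A' : Subgroup sylT) : Set sylT) = ({1, a', b', a' * b'} : Finset sylT) :=
    Set.eq_of_subset_of_ncard_le hinf (by
      rw [Set.ncard_coe_finset, ← Nat.card_coe_set_eq]
      exact Finset.card_le_four.trans hinfeq.ge) (Finset.finite_toSet _)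
  have haB : a' ∈ B ⊓ A' := by rw [← SetLike.mem_coe, hseteq]; simp
  have hbB : b' ∈ B ⊓ A' := by rw [← SetLike.mem_coe, hseteq]; simp
  have hW : {v : Vec F | ∀ r ∈ R, mat r *ᵥ v = v} ⊆ (K.wM : Set (Vec F)) := by
    intro v hv
    rw [SetLike.mem_coe, ← K.fx_pair ha hb ha1 hb1 hca hdb hx hy hgen]
    exact ⟨K.mem_fx.2 (hv (K.σHom a') haB.1), K.mem_fx.2 (hv (K.σHom b') hbB.1)⟩
  rw [show (64 : ℕ) = (K.wM : Set (Vec F)).ncard by rw [← Nat.card_coe_set_eq]; exact K.ncard_wM.symm]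
  refine Set.ncard_lt_ncard (lt_of_le_of_ne hW fun heq => ?_) (Set.toFinite _)
  have hs : ∀ w ∈ K.wM, mat (K.σ s.1).1 *ᵥ w = w := fun w hw => by
    have : w ∈ {v : Vec F | ∀ r ∈ R, mat r *ᵥ v = v} := heq ▸ hw
    exact this (K.σHom s) hsB
  have hs2 : K.σ s.1 * K.σ s.1 = 1 := by
    rw [← K.σ_mul s.2 s.2, show s.1 * s.1 = 1 from congrArg Subtype.val (hBsq s hsB), K.σ_one]
  have hall : ∀ k ∈ sixteen, s.1 * k = k * s.1 := by
    intro k hk
    have hcomm : K.σ s.1 * K.σ k = K.σ k * K.σ s.1 := K.act_inj fun v => by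
      have inW : ∀ g : K.L, g * g = 1 → (∀ w ∈ K.wM, mat g.1 *ᵥ w = w) → K.mv g v ∈ K.wM := fun g hg hfix =>
        K.wP_le fun w hw => by
          rw [K.herm_mv hg, mv_apply, hfix w hw, add_self_vec]
          simp [hermForm]
      have hp := inW _ hs2 hs
      have hq := inW _ (K.six_sq hk) fun w hw => hw k hk
      have e1 : mat (K.σ s.1).1 *ᵥ v = v + K.mv (K.σ s.1) v := by
        rw [mv_apply, add_comm v, add_assoc, add_self_vec, add_zero]
      have e2 : mat (K.σ k).1 *ᵥ v = v + K.mv (K.σ k) v := by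
        rw [mv_apply, add_comm v, add_assoc, add_self_vec, add_zero]
      rw [K.act_mul, K.act_mul, e1, e2, Matrix.mulVec_add, Matrix.mulVec_add, e1, e2, hs _ hq, hp k hk]
      abel
    rw [← K.σ_mul s.2 (sixteen_le hk), ← K.σ_mul (sixteen_le hk) s.2] at hcomm
    have := congrArg K.π hcomm
    rwa [K.π_σ (syl_pow (mul_mem s.2 (sixteen_le hk))), K.π_σ (syl_pow (mul_mem (sixteen_le hk) s.2))] at this
  have hsub : (sixteen : Set MT) ⊆ ({1, a, b, a * b} : Finset MT) := fun k hk => by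
    simpa using hC k hk (hall k hk)
  have := Set.ncard_le_ncard hsub (Finset.finite_toSet _)
  rw [Set.ncard_coe_finset, ← Nat.card_coe_set_eq] at this
  have h4 : ({1, a, b, a * b} : Finset MT).card ≤ 4 := Finset.card_le_four
  rw [show Nat.card ((sixteen : Subgroup MT) : Set MT) = 16 from card_sixteen] at this
  omega

end Cover

end Cfsg.Agent.H66.JFour
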