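import Cfsg.Agent.H66.JFour.Max
import Cfsg.Agent.H66.JFour.Action
import Cfsg.Agent.H13.Actions
import Cfsg.Agent.H10.MathieuOut

/-!
# An extension over a triple cover from the conditions of Janko-four type
-/

set_option autoImplicit false
set_option linter.unusedSectionVars false
set_option maxHeartbeats 500000

namespace Cfsg.Agent.H66.JFour

open Matrix Cfsg.Agent.H8.U62 Cfsg.Agent.H8.U62.Setup

attribute [local irreducible] sixteen sylT

theorem simple_MT : IsSimpleGroup MT := by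
  show IsSimpleGroup Cfsg.Spor.M22
  rw [H13.M22_eq]
  exact H13.g22_simple

theorem exists_ne_comm : ∃ x y : MT, x * y ≠ y * x := by
  obtain ⟨x, -, y, -, h⟩ := exists_nonComm
  refine ⟨x, y, fun e => h ?_⟩
  rw [e, mul_inv_cancel_right, mul_inv_cancel]
  exact one_mem _

theorem conj_MT_injective : Function.Injective (MulAut.conj : MT →* MulAut MT) := by
  have := simple_MT
  rw [← MonoidHom.ker_eq_bot_iff]
  refine (((MonoidHom.normal_ker (MulAut.conj : MT →* MulAut MT))).eq_bot_or_eq_top).resolve_right fun h => ?_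
  obtain ⟨x, y, hxy⟩ := exists_ne_comm
  have hx : (MulAut.conj : MT →* MulAut MT) x = 1 := MonoidHom.mem_ker.1 (by rw [h]; trivial)
  have := congrArg (fun φ : MulAut MT => φ y) hx
  simp only [MulAut.conj_apply, MulAut.one_apply] at this
  exact hxy (mul_inv_eq_iff_eq_mul.1 this)

theorem commutator_MT : commutator MT = ⊤ := by
  have := simple_MT
  refine ((Subgroup.commutator_normal ⊤ ⊤).eq_bot_or_eq_top).resolve_left fun h => ?_
  obtain ⟨x, y, hxy⟩ := exists_ne_comm
  refine hxy (commutatorElement_eq_one_iff_mul_comm.1 ?_)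
  rw [← Subgroup.mem_bot, ← h]
  exact Subgroup.commutator_mem_commutator trivial trivial

theorem index_inn : ((MulAut.conj : MT →* MulAut MT).range).index = 2 := by
  rw [Subgroup.index_eq_card]
  exact H10.out_M22

theorem card_mulAut_MT : Nat.card (MulAut MT) = 887040 := by
  rw [← (MulAut.conj : MT →* MulAut MT).range.card_mul_index, index_inn,
    ← Nat.card_congr (MonoidHom.ofInjective conj_MT_injective).toEquiv, card_MT]

variable {C : Type*} [Group C] [Finite C]

/-- The inner automorphisms are the only subgroup of index two. -/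
theorem eq_inn {J : Subgroup (MulAut MT)} (hJ : J.index = 2) : J = (MulAut.conj : MT →* MulAut MT).range := by
  have := simple_MT
  have : Finite (MulAut MT) := Nat.finite_of_card_ne_zero (by rw [card_mulAut_MT]; norm_num)
  have hJn : J.Normal := Subgroup.normal_of_index_eq_two hJ
  have hle : (MulAut.conj : MT →* MulAut MT).range ≤ J := by
    rintro _ ⟨x, rfl⟩
    rcases (hJn.comap (MulAut.conj : MT →* MulAut MT)).eq_bot_or_eq_top with h | h
    · exfalso
      have h1 := (J.comap (MulAut.conj : MT →* MulAut MT)).card_mul_index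
      rw [h, Subgroup.card_bot, one_mul, card_MT, ← h, Subgroup.index_comap] at h1
      have h2 := Nat.le_of_dvd (by norm_num) (hJ ▸ J.relIndex_dvd_index_of_normal (MulAut.conj : MT →* MulAut MT).range)
      omega
    · exact Subgroup.mem_comap.1 (h ▸ Subgroup.mem_top x)
  refine (Subgroup.eq_of_le_of_card_ge hle ?_).symm
  have h1 := J.card_mul_index
  have h2 := (MulAut.conj : MT →* MulAut MT).range.card_mul_index
  rw [hJ] at h1
  rw [index_inn] at h2
  omega

/-- The conditions give an extension. -/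
theorem exists_ext {Q : Subgroup C} [Q.Normal] {e : C} (hs : Core Q e) {p : C} (hp3 : p ^ 3 = 1) (hpne : p ≠ 1)
    (hfix : ∀ a ∈ Q, a * p = p * a → a = 1 ∨ a = e)
    {N : Subgroup C} [N.Normal] (hQN : Q ≤ N) (hN : Nat.card N = 3 * 2 ^ 13) (hpN : p ∈ N)
    (iso : C ⧸ N ≃* MulAut MT) {g0 : C} (hg0 : g0 * p * g0⁻¹ = p * p)
    (hcomm : p ∈ ⁅Subgroup.centralizer ({p} : Set C), Subgroup.centralizer ({p} : Set C)⁆) :
    ∃ D : Ext (GaloisField 2 2) C, D.Q = Q ∧ Nat.card C = 3 * 2 ^ 13 * 887040 := by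
  classical
  let F := GaloisField 2 2
  obtain ⟨v, q, τ, hvs, hvm, hv0, hqv, hq0, hadd, hnd, hqi, hτv, hτk⟩ := hs.exists_action
  have hpQ : p ∉ Q := fun h => by
    have h2 : orderOf (⟨p, h⟩ : Q) ∣ 2 ^ 13 := hs.card ▸ orderOf_dvd_natCard _
    rw [Subgroup.orderOf_mk, orderOf_eq_prime (hp := ⟨Nat.prime_three⟩) hp3 hpne] at h2
    norm_num at h2
  -- the quotient
  set mk := QuotientGroup.mk' Q with hmk
  set x := mk p with hx
  have hx1 : x ≠ 1 := fun h => hpQ ((QuotientGroup.eq_one_iff p).1 h)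
  have hx3 : x * (x * x) = 1 := by rw [hx, ← map_mul, ← map_mul, ← pow_three, hp3, map_one]
  have hxx : x * x ≠ 1 := fun h => hx1 (by rw [h, mul_one] at hx3; exact hx3)
  have hxne : x * x ≠ x := fun h => hx1 (mul_eq_left.1 h)
  have hNimg : N.map mk = Subgroup.zpowers x := by
    refine (Subgroup.eq_of_le_of_card_ge (Subgroup.zpowers_le.2 (Subgroup.mem_map_of_mem mk hpN)) ?_).symm
    rw [Nat.card_zpowers, orderOf_eq_prime (hp := ⟨Nat.prime_three⟩) (by rw [pow_three]; exact hx3) hx1]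
    have h2 := (mk.comp N.subtype).ker.card_eq_card_quotient_mul_card_subgroup
    rw [Nat.card_congr (QuotientGroup.quotientKerEquivRange (mk.comp N.subtype)).toEquiv, MonoidHom.range_comp,
      Subgroup.range_subtype, hN, show Nat.card (mk.comp N.subtype).ker = Nat.card Q from Nat.card_congr
        { toFun := fun a => ⟨a.1.1, (QuotientGroup.eq_one_iff _).1 a.2⟩
          invFun := fun a => ⟨⟨a.1, hQN a.2⟩, (QuotientGroup.eq_one_iff _).2 a.2⟩
          left_inv := fun a => rfl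
          right_inv := fun a => rfl }, hs.card] at h2
    omega
  have hzp : ∀ y ∈ Subgroup.zpowers x, y = 1 ∨ y = x ∨ y = x * x := by
    intro y hy
    obtain ⟨n, rfl⟩ := hy
    have h3 : x ^ (3 : ℤ) = 1 := by
      rw [show (3 : ℤ) = ((3 : ℕ) : ℤ) from rfl, zpow_natCast, pow_three]; exact hx3
    have e' : x ^ n = x ^ (n % 3) := by
      conv_lhs => rw [← Int.emod_add_mul_ediv n 3, _root_.zpow_add, _root_.zpow_mul, h3, _root_.one_zpow, mul_one]
    have h0 := Int.emod_nonneg n (by norm_num : (3 : ℤ) ≠ 0)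
    have h1 := Int.emod_lt_of_pos n (by norm_num : (0 : ℤ) < 3)
    simp only [e']
    interval_cases n % 3
    · exact Or.inl (zpow_zero _)
    · exact Or.inr (Or.inl (zpow_one _))
    · exact Or.inr (Or.inr (zpow_two _))
  have hconj : ∀ c : C, mk c * x * (mk c)⁻¹ = x ∨ mk c * x * (mk c)⁻¹ = x * x := fun c => by
    have hm : mk (c * p * c⁻¹) ∈ N.map mk := ⟨_, (inferInstance : N.Normal).conj_mem _ hpN c, rfl⟩
    rw [hNimg, map_mul, map_mul, map_inv] at hm
    exact (hzp _ hm).resolve_left fun h => hx1 (conj_eq_one_iff.1 h)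
  let M : Subgroup C := (Subgroup.centralizer ({x} : Set (C ⧸ Q))).comap mk
  have hM : ∀ c, c ∈ M ↔ mk c * x * (mk c)⁻¹ = x := fun c => by
    rw [Subgroup.mem_comap, Subgroup.mem_centralizer_singleton_iff, mul_inv_eq_iff_eq_mul]
  have hxinv : x * x * (x * x) = x := by
    calc x * x * (x * x) = x * (x * (x * x)) := mul_assoc _ _ _
      _ = x := by rw [hx3, mul_one]
  have hg0M : mk g0 * x * (mk g0)⁻¹ = x * x := by
    rw [hx, ← map_inv, ← map_mul, ← map_mul, hg0, map_mul]
  have hout : ∀ c, c ∉ M → mk c * x * (mk c)⁻¹ = x * x := fun c hc =>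
    (hconj c).resolve_left fun h => hc ((hM c).2 h)
  have hindex : M.index = 2 := by
    refine Subgroup.index_eq_two_iff.2 ⟨g0, fun b => ?_⟩
    have hb : mk (b * g0) * x * (mk (b * g0))⁻¹ = (mk b * x * (mk b)⁻¹) * (mk b * x * (mk b)⁻¹) := by
      rw [map_mul, show mk b * mk g0 * x * (mk b * mk g0)⁻¹ = mk b * (mk g0 * x * (mk g0)⁻¹) * (mk b)⁻¹ by group,
        hg0M]
      group
    rcases hconj b with h | h
    · refine Or.inr ⟨(hM b).2 h, fun hh => hxne ?_⟩
      rw [hM, hb, h] at hh; exact hh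
    · refine Or.inl ⟨(hM _).2 (by rw [hb, h, hxinv]), fun hh => hxne ?_⟩
      rw [hM, h] at hh; exact hh
  have hMn : M.Normal := Subgroup.normal_of_index_eq_two hindex
  have hNM : N ≤ M := fun n hn => (hM n).2 (by
    have hm : mk n ∈ N.map mk := ⟨n, hn, rfl⟩
    rw [hNimg] at hm
    obtain ⟨k, hk⟩ := hm
    rw [← hk, mul_inv_eq_iff_eq_mul]
    exact Commute.zpow_self x k)
  have hQM : Q ≤ M := hQN.trans hNM
  -- the quotient by the normal subgroup
  let f : C →* MulAut MT := iso.toMonoidHom.comp (QuotientGroup.mk' N)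
  have hfs : Function.Surjective f := iso.surjective.comp (QuotientGroup.mk'_surjective N)
  have hfk : ∀ c, f c = 1 ↔ c ∈ N := fun c => by
    show iso (QuotientGroup.mk c) = 1 ↔ c ∈ N
    rw [MulEquiv.map_eq_one_iff, QuotientGroup.eq_one_iff]
  have hfM : M.map f = (MulAut.conj : MT →* MulAut MT).range := by
    refine eq_inn ?_
    rw [M.index_map_eq hfs fun c hc => hNM ((hfk c).1 hc), hindex]
  let einn := MonoidHom.ofInjective conj_MT_injective
  let π0 : M →* MT := einn.symm.toMonoidHom.comp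
    ((f.comp M.subtype).codRestrict _ fun m => hfM ▸ ⟨m.1, m.2, rfl⟩)
  have hπ0k : ∀ m : M, π0 m = 1 ↔ (m : C) ∈ N := fun m => by
    show einn.symm _ = 1 ↔ _
    rw [MulEquiv.map_eq_one_iff, ← hfk, Subtype.ext_iff]
    rfl
  have hπ0s : Function.Surjective π0 := fun y => by
    obtain ⟨c, hc, e'⟩ : MulAut.conj y ∈ M.map f := hfM.symm ▸ ⟨y, rfl⟩
    refine ⟨⟨c, hc⟩, einn.symm_apply_eq.2 (Subtype.ext ?_)⟩
    exact e'
  -- coordinates
  have hv1 : v 1 = 0 := (hv0 1).2 (Or.inl rfl)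
  have hvinv : ∀ a, v a⁻¹ = v a := fun a => by
    have h := hvm a⁻¹ a
    rw [inv_mul_cancel, hv1] at h
    calc v a⁻¹ = v a⁻¹ + (v a + v a) := by rw [Turn.two_self, add_zero]
      _ = (v a⁻¹ + v a) + v a := (add_assoc _ _ _).symm
      _ = v a := by rw [← h, zero_add]
  have hτQ : ∀ c c', mk c = mk c' → τ c = τ c' := fun c c' h => by
    have : τ (c⁻¹ * c') = 1 := (hτk _).2 (QuotientGroup.eq.1 h)
    calc τ c = τ c * τ (c⁻¹ * c') := by rw [this, mul_one]
      _ = τ c' := by rw [← map_mul, mul_inv_cancel_left]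
  have hrel : ∀ u, τ p *ᵥ (τ p *ᵥ u) + τ p *ᵥ u + u = 0 := by
    intro u
    set w := τ p *ᵥ (τ p *ᵥ u) + τ p *ᵥ u + u with hw
    have hwfix : τ p *ᵥ w = w := by
      rw [hw, Matrix.mulVec_add, Matrix.mulVec_add]
      have : τ p *ᵥ (τ p *ᵥ (τ p *ᵥ u)) = u := by
        rw [Matrix.mulVec_mulVec, Matrix.mulVec_mulVec, mul_assoc, ← map_mul, ← map_mul, ← pow_three, hp3, map_one,
          Matrix.one_mulVec]
      rw [this]; abel
    obtain ⟨a, ha⟩ := hvs w
    rw [← ha, hτv] at hwfix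
    have hd : v (a⁻¹ * cj p a) = 0 := by rw [hvm, hvinv, hwfix, Turn.two_self]
    have hcomm' : (a : C) * p = p * a := by
      rcases (hv0 _).1 hd with h | h
      · have h' : (a : C)⁻¹ * (p * a * p⁻¹) = 1 := h
        calc (a : C) * p = (a : C) * ((a : C)⁻¹ * (p * a * p⁻¹)) * p := by rw [h', mul_one]
          _ = p * a := by group
      · exfalso
        have h' : p * a * p⁻¹ = a * e := inv_mul_eq_iff_eq_mul.1 (h : (a : C)⁻¹ * (p * a * p⁻¹) = e)
        have he : p * e * p⁻¹ = e := by rw [hs.comm p, mul_inv_cancel_right]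
        have h2 : p * (p * a * p⁻¹) * p⁻¹ = a := by
          rw [h', show p * ((a : C) * e) * p⁻¹ = (p * a * p⁻¹) * (p * e * p⁻¹) by group, h', he, mul_assoc, hs.sq,
            mul_one]
        have h3 : p * (p * (p * a * p⁻¹) * p⁻¹) * p⁻¹ = a := by
          have e3 : p * p * p = 1 := by rw [mul_assoc, ← pow_three, hp3]
          calc p * (p * (p * a * p⁻¹) * p⁻¹) * p⁻¹ = (p * p * p) * a * (p * p * p)⁻¹ := by group
            _ = a := by rw [e3]; group
        rw [h2, h'] at h3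
        exact hs.ne (mul_eq_left.1 h3)
    rw [← ha, hv0]
    exact hfix _ a.2 hcomm'
  let T : Turn :=
    { q := q
      w := AddMonoidHom.mk' (fun u => τ p *ᵥ u) fun u v => Matrix.mulVec_add _ u v
      q_zero := hq0
      add_left := hadd
      nondeg := hnd
      q_w := fun u => hqi p u
      rel := hrel }
  obtain ⟨φ, hbij, hφadd, hφw, hφh⟩ := T.exists_coord (F := F)
  have hφw' : ∀ u, φ (τ p *ᵥ u) = (om : F) • φ u := hφw
  have hφh' : ∀ u, hermForm 6 F 2 (φ u) (φ u) = Turn.cst (q u) := hφh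
  have hφ0 : φ 0 = 0 := by
    have := hφadd 0 0
    rwa [add_zero, left_eq_add] at this
  -- the representation of the index two subgroup
  let ψ := Equiv.ofBijective φ hbij
  have hψ : ∀ u, ψ.symm (φ u) = u := fun u => ψ.symm_apply_apply u
  let Lf : M → (Fin 6 → F) → (Fin 6 → F) := fun a y => φ (τ a.1 *ᵥ ψ.symm y)
  have hLφ : ∀ a u, Lf a (φ u) = φ (τ a.1 *ᵥ u) := fun a u => by simp only [Lf, hψ]
  have hLadd : ∀ a y y', Lf a (y + y') = Lf a y + Lf a y' := by
    intro a y y'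
    obtain ⟨u, rfl⟩ := hbij.2 y
    obtain ⟨u', rfl⟩ := hbij.2 y'
    rw [← hφadd, hLφ, hLφ, hLφ, Matrix.mulVec_add, hφadd]
  have hτM : ∀ a : M, τ (a.1 * p) = τ (p * a.1) := fun a => hτQ _ _ (by
    rw [map_mul, map_mul, ← hx]
    exact mul_inv_eq_iff_eq_mul.1 ((hM a.1).1 a.2))
  have hLom : ∀ a y, Lf a ((om : F) • y) = (om : F) • Lf a y := by
    intro a y
    obtain ⟨u, rfl⟩ := hbij.2 y
    rw [← hφw', hLφ, hLφ, Matrix.mulVec_mulVec, ← map_mul, hτM, map_mul, ← Matrix.mulVec_mulVec, hφw']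
  have hLsmul : ∀ a (c : F) y, Lf a (c • y) = c • Lf a y := by
    intro a c y
    obtain ⟨b, b', rfl⟩ := exists_fe c
    have h0 : Lf a 0 = 0 := by
      show φ (τ a.1 *ᵥ ψ.symm 0) = 0
      rw [show ψ.symm 0 = 0 from ψ.symm_apply_eq.2 hφ0.symm, Matrix.mulVec_zero, hφ0]
    cases b <;> cases b' <;> simp [fe, bF, h0, hLadd, hLom, add_smul]
  let Mf : M → Matrix (Fin 6) (Fin 6) F := fun a =>
    LinearMap.toMatrix' { toFun := Lf a, map_add' := hLadd a, map_smul' := hLsmul a }
  have hMf : ∀ a u, Mf a *ᵥ φ u = φ (τ a.1 *ᵥ u) := fun a u => by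
    show LinearMap.toMatrix' _ *ᵥ φ u = _
    rw [← Matrix.toLin'_apply, Matrix.toLin'_toMatrix']
    exact hLφ a u
  have hMext : ∀ X Y : Matrix (Fin 6) (Fin 6) F, (∀ u, X *ᵥ φ u = Y *ᵥ φ u) → X = Y := fun X Y h =>
    Matrix.ext_of_mulVec_single fun i => by
      obtain ⟨u, hu⟩ := hbij.2 (Pi.single i 1)
      rw [← hu]; exact h u
  let Mh : M →* Matrix (Fin 6) (Fin 6) F :=
    { toFun := Mf
      map_one' := hMext _ _ fun u => by rw [hMf, OneMemClass.coe_one, map_one, Matrix.one_mulVec, Matrix.one_mulVec]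
      map_mul' := fun a b => hMext _ _ fun u => by
        rw [hMf, Subgroup.coe_mul, map_mul, ← Matrix.mulVec_mulVec, ← Matrix.mulVec_mulVec, hMf, hMf] }
  let χ : M →* Fˣ := (Matrix.detMonoidHom.comp Mh).toHomUnits
  have hχv : ∀ a, (χ a : F) = (Mf a).det := fun a => by
    simp only [χ, MonoidHom.coe_toHomUnits, MonoidHom.comp_apply, Matrix.coe_detMonoidHom]
    rfl
  let p' : M := ⟨p, hNM hpN⟩
  have hpc : p' ∈ commutator M := by
    have hle : Subgroup.centralizer ({p} : Set C) ≤ M := fun c hc => (hM c).2 (by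
      rw [hx, mul_inv_eq_iff_eq_mul, ← map_mul, ← map_mul, Subgroup.mem_centralizer_singleton_iff.1 hc])
    have h := Subgroup.commutator_mono hle hle hcomm
    rw [← Subgroup.range_subtype M, MonoidHom.range_eq_map, ← Subgroup.map_commutator] at h
    obtain ⟨y, hy, e'⟩ := h
    rwa [show p' = y from Subtype.ext e'.symm]
  have hMQ : ∀ a : M, a.1 ∈ Q → Mf a = 1 := fun a ha => hMext _ _ fun u => by
    rw [hMf, (hτk _).2 ha, Matrix.one_mulVec, Matrix.one_mulVec]
  have hχ : ∀ a, χ a = 1 := by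
    have hk : ∀ c ∈ commutator M, χ c = 1 := fun c hc => Abelianization.commutator_subset_ker χ hc
    intro a
    have hm : π0 a ∈ (commutator M).map π0 := by
      rw [commutator_def, Subgroup.map_commutator, Subgroup.map_top_of_surjective _ hπ0s, ← commutator_def,
        commutator_MT]
      trivial
    obtain ⟨c, hc, hce⟩ := hm
    have hn : ((c⁻¹ * a : M) : C) ∈ N := (hπ0k _).1 (by rw [map_mul, map_inv, hce, inv_mul_cancel])
    obtain ⟨k, hk'⟩ : mk ((c⁻¹ * a : M) : C) ∈ Subgroup.zpowers x := hNimg ▸ ⟨_, hn, rfl⟩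
    have hq : (((p' ^ k)⁻¹ * (c⁻¹ * a) : M) : C) ∈ Q := by
      rw [← QuotientGroup.eq_one_iff]
      show mk ((((p' ^ k)⁻¹ : M) : C) * ((c⁻¹ * a : M) : C)) = 1
      rw [map_mul, Subgroup.coe_inv, map_inv, SubgroupClass.coe_zpow, map_zpow, ← hk']
      exact inv_mul_cancel _
    have h1 : χ ((p' ^ k)⁻¹ * (c⁻¹ * a)) = 1 := Units.ext (by
      rw [hχv, hMQ _ hq, Matrix.det_one, Units.val_one])
    rwa [map_mul, map_mul, map_inv, map_inv, map_zpow, hk p' hpc, hk c hc, _root_.one_zpow, inv_one, one_mul,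
      one_mul] at h1
  have hdet : ∀ a, (Mf a).det = 1 := fun a => by rw [← hχv, hχ a, Units.val_one]
  have hherm : ∀ a y y', hermForm 6 F 2 (Mf a *ᵥ y) (Mf a *ᵥ y') = hermForm 6 F 2 y y' := by
    intro a
    have hself : ∀ y, hermForm 6 F 2 (Mf a *ᵥ y) (Mf a *ᵥ y) = hermForm 6 F 2 y y := fun y => by
      obtain ⟨u, rfl⟩ := hbij.2 y
      rw [hMf, hφh', hφh', hqi]
    intro y y'
    have k1 := hself (y + y')
    rw [Matrix.mulVec_add, herm_add_self, herm_add_self, hself y, hself y'] at k1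
    have k2 := hself ((om : F) • y + y')
    rw [Matrix.mulVec_add, herm_add_self, herm_add_self, hself y', hself ((om : F) • y), Matrix.mulVec_smul] at k2
    simp only [herm_smul_left, mul_pow] at k2
    have hω : (om : F) ^ 2 = om + 1 := by rw [pow_two, hom]
    linear_combination -k2 + (om + 1) * k1 +
      (hermForm 6 F 2 (Mf a *ᵥ y) (Mf a *ᵥ y') ^ 2 - hermForm 6 F 2 y y' ^ 2) * hω
  let ρ : M →* SU6 F :=
    { toFun := fun a => ⟨⟨Mf a, hdet a⟩, H3.mem_SU_iff.2 (hherm a)⟩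
      map_one' := ext_mat (map_one Mh)
      map_mul' := fun a b => ext_mat (map_mul Mh a b) }
  have hρv : ∀ (a : M) u, mat (ρ a) *ᵥ φ u = φ (τ a.1 *ᵥ u) := hMf
  have hρker : ∀ m : M, ρ m = 1 → (m : C) ∈ Q := fun m hm => by
    refine (hτk _).1 (Matrix.ext_of_mulVec_single fun i => hbij.1 ?_)
    rw [← hρv, hm, mat_one, Matrix.one_mulVec, Matrix.one_mulVec]
  have hker : ∀ m, ρ.rangeRestrict m = 1 → π0 m = 1 := fun m hm =>
    (hπ0k m).2 (hQN (hρker m (congrArg Subtype.val hm)))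
  let π : ρ.range →* MT := MonoidHom.liftOfSurjective ρ.rangeRestrict ρ.rangeRestrict_surjective ⟨π0, hker⟩
  have hπ : ∀ m, π (ρ.rangeRestrict m) = π0 m := fun m =>
    MonoidHom.liftOfRightInverse_comp_apply _ _ _ ⟨π0, hker⟩ m
  let cov : Cover F :=
    { L := ρ.range
      π := π
      surj := fun y => (hπ0s y).elim fun m hm => ⟨ρ.rangeRestrict m, (hπ m).trans hm⟩
      t := ρ.rangeRestrict p'
      t_act := fun y => by
        obtain ⟨u, rfl⟩ := hbij.2 y
        exact (hρv p' u).trans (hφw' u)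
      t_map := by rw [hπ, hπ0k]; exact hpN
      t_comm := by
        have h : ρ.rangeRestrict p' ∈ (commutator M).map ρ.rangeRestrict := ⟨_, hpc, rfl⟩
        rwa [commutator_def, Subgroup.map_commutator,
          Subgroup.map_top_of_surjective _ ρ.rangeRestrict_surjective, ← commutator_def] at h
      ker := fun g hg => by
        obtain ⟨m, rfl⟩ := ρ.rangeRestrict_surjective g
        rw [hπ, hπ0k] at hg
        obtain ⟨k, hk⟩ : mk (m : C) ∈ Subgroup.zpowers x := hNimg ▸ ⟨_, hg, rfl⟩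
        refine ⟨k, ?_⟩
        show ρ.rangeRestrict p' ^ k = _
        rw [← map_zpow]
        refine Subtype.ext (ext_mat (hMext _ _ fun u => ?_))
        show mat (ρ (p' ^ k)) *ᵥ φ u = mat (ρ m) *ᵥ φ u
        rw [hρv, hρv, hτQ _ m.1 (by rw [← hk, SubgroupClass.coe_zpow, map_zpow])] }
  let φE : C → (Fin 6 → F) := fun c => if h : c ∈ Q then φ (v ⟨c, h⟩) else 0
  have hφE : ∀ c (h : c ∈ Q), φE c = φ (v ⟨c, h⟩) := fun c h => dif_pos h
  have hcE : ∀ (c : C) (a : Q), φE (c * a.1 * c⁻¹) = φ (τ c *ᵥ v a) := fun c a => by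
    rw [hφE _ ((inferInstance : Q.Normal).conj_mem _ a.2 c), hτv]; rfl
  refine ⟨{ cov := cov, Q := Q, M := M, Qn := inferInstance, Mn := hMn, M2 := hindex, QM := hQM
            e := e, e_mem := hs.mem, e_ne := hs.ne, e_comm := hs.comm
            φ := φE, ρ := ρ, cardQ := hs.card
            φ_mul := fun a ha b hb => ?_
            φ_zero := fun a ha => ?_
            φ_surj := fun y => ?_
            φ_iso := fun a ha => ?_
            ρ_range := rfl
            ρ_ker := hρker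
            ρ_act := fun m a ha => ?_
            anti := fun c hc a ha b hb h => ?_ }, rfl, ?_⟩
  · rw [hφE _ ha, hφE _ hb, hφE _ (mul_mem ha hb), ← hφadd, ← hvm]; rfl
  · rw [hφE _ ha, ← hφ0, hbij.1.eq_iff, hv0]
  · obtain ⟨u, rfl⟩ := hbij.2 y
    obtain ⟨a, rfl⟩ := hvs u
    exact ⟨a.1, a.2, hφE _ a.2⟩
  · rw [hφE _ ha, hφh']
    constructor
    · exact fun h => (hqv ⟨a, ha⟩).1 (Turn.cst_eq_zero h)
    · intro h
      rw [(hqv ⟨a, ha⟩).2 h, map_zero]
  · rw [hcE m.1 ⟨a, ha⟩, hφE _ ha, hρv]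
  · have hvb : v ⟨b, hb⟩ = τ p *ᵥ v ⟨a, ha⟩ := hbij.1 (by rw [hφw', ← hφE _ ha, ← hφE _ hb, h])
    have hcp : τ (c * p) = τ (p * (p * c)) := hτQ _ _ (by
      rw [map_mul, map_mul, map_mul, ← hx, ← mul_assoc x x]
      exact mul_inv_eq_iff_eq_mul.1 (hout c hc))
    rw [hcE c ⟨b, hb⟩, hcE c ⟨a, ha⟩, hvb, Matrix.mulVec_mulVec, ← map_mul, hcp, map_mul, map_mul,
      ← Matrix.mulVec_mulVec, ← Matrix.mulVec_mulVec, hφw', hφw', smul_smul]
  · rw [N.card_eq_card_quotient_mul_card_subgroup, Nat.card_congr iso.toEquiv, card_mulAut_MT, hN, mul_comm]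

end Cfsg.Agent.H66.JFour
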