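import Cfsg.Agent.H66.JFour.Cover
import Cfsg.Prelude.Def_Transfer

/-!
# The largest elementary abelian subgroup of an extraspecial extension of a triple cover of M22.2
-/

set_option autoImplicit false
set_option linter.unusedSectionVars false

namespace Cfsg.Agent.H66.JFour

open Matrix Cfsg.Agent.H8.U62 Cfsg.Agent.H8.U62.Setup
open scoped Pointwise

/-- The data used: a group acting on a hermitian space through an extension by one outer element. -/
structure Ext (F : Type) [Setup F] (C : Type*) [Group C] where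
  cov : Cover F
  Q : Subgroup C
  M : Subgroup C
  Qn : Q.Normal
  Mn : M.Normal
  M2 : M.index = 2
  QM : Q ≤ M
  e : C
  e_mem : e ∈ Q
  e_ne : e ≠ 1
  e_comm : ∀ c, c * e = e * c
  φ : C → (Fin 6 → F)
  ρ : M →* SU6 F
  cardQ : Nat.card Q = 2 ^ 13
  φ_mul : ∀ a ∈ Q, ∀ b ∈ Q, φ (a * b) = φ a + φ b
  φ_zero : ∀ a ∈ Q, φ a = 0 ↔ a = 1 ∨ a = e
  φ_surj : ∀ x, ∃ a ∈ Q, φ a = x
  φ_iso : ∀ a ∈ Q, hermForm 6 F 2 (φ a) (φ a) = 0 ↔ a * a = 1
  ρ_range : ρ.range = cov.L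
  ρ_ker : ∀ m : M, ρ m = 1 → (m : C) ∈ Q
  ρ_act : ∀ (m : M), ∀ a ∈ Q, φ ((m : C) * a * (m : C)⁻¹) = mat (ρ m) *ᵥ φ a
  anti : ∀ c, c ∉ M → ∀ a ∈ Q, ∀ b ∈ Q, φ b = (om : F) • φ a →
    φ (c * b * c⁻¹) = ((om : F) * om) • φ (c * a * c⁻¹)

namespace Ext

variable {F : Type} [Setup F] {C : Type*} [Group C] (D : Ext F C)

instance Qn' : D.Q.Normal := D.Qn

theorem neg_eq (v : Fin 6 → F) : -v = v := by
  funext j
  show -(v j) = v j
  linear_combination -(v j) * Setup.two (F := F)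

theorem φ_one : D.φ 1 = 0 := (D.φ_zero 1 (one_mem _)).2 (Or.inl rfl)

theorem φ_inv {a : C} (ha : a ∈ D.Q) : D.φ a⁻¹ = D.φ a := by
  have h := D.φ_mul a ha a⁻¹ (inv_mem ha)
  rw [mul_inv_cancel, D.φ_one] at h
  rw [eq_neg_of_add_eq_zero_right h.symm, neg_eq]

/-- The map to the hermitian space. -/
noncomputable def ψ : D.Q →* Multiplicative (Fin 6 → F) where
  toFun a := Multiplicative.ofAdd (D.φ a.1)
  map_one' := by simp [D.φ_one]
  map_mul' a b := by
    show Multiplicative.ofAdd (D.φ (a.1 * b.1)) = _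
    rw [D.φ_mul _ a.2 _ b.2]
    rfl

theorem eq_of_φ_eq {a b : C} (ha : a ∈ D.Q) (hb : b ∈ D.Q) (h : D.φ a = D.φ b) : b = a ∨ b = a * D.e := by
  have h1 : D.φ (a⁻¹ * b) = 0 := by
    rw [D.φ_mul _ (inv_mem ha) _ hb, D.φ_inv ha, h]
    exact neg_eq_iff_add_eq_zero.1 (neg_eq _)
  rcases (D.φ_zero _ (mul_mem (inv_mem ha) hb)).1 h1 with e | e
  · exact Or.inl (inv_mul_eq_one.1 e).symm
  · exact Or.inr (inv_mul_eq_iff_eq_mul.1 e)

theorem mat_ext {g : SU6 F} (h : ∀ v, mat g *ᵥ v = v) : g = 1 :=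
  ext_mat (Matrix.ext_iff_mulVec.2 fun v => by rw [h v, mat_one, Matrix.one_mulVec])

theorem ker_iff (m : D.M) : D.ρ m = 1 ↔ (m : C) ∈ D.Q := by
  refine ⟨D.ρ_ker m, fun hm => mat_ext fun v => ?_⟩
  obtain ⟨a, ha, rfl⟩ := D.φ_surj v
  rw [← D.ρ_act m a ha, D.φ_mul _ (mul_mem hm ha) _ (inv_mem hm), D.φ_mul _ hm _ ha, D.φ_inv hm]
  rw [add_right_comm, neg_eq_iff_add_eq_zero.1 (neg_eq (D.φ (m : C))), zero_add]

/-- The fixed space, as a subgroup of the hermitian space. -/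
noncomputable def fixA (R : Subgroup (SU6 F)) : AddSubgroup (Fin 6 → F) where
  carrier := {v | ∀ a ∈ R, mat a *ᵥ v = v}
  zero_mem' a _ := Matrix.mulVec_zero _
  add_mem' {u v} hu hv a ha := by rw [Matrix.mulVec_add, hu a ha, hv a ha]
  neg_mem' {u} hu a ha := by rw [Matrix.mulVec_neg, hu a ha]

theorem mem_fix_wS (v : Fin 6 → F) : v ∈ fixA D.cov.kS ↔ v ∈ D.cov.wM := by
  constructor
  · exact fun h a ha => h _ (D.cov.mem_kS.2 ⟨a, ha, rfl⟩)
  · intro h g hg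
    obtain ⟨a, ha, rfl⟩ := D.cov.mem_kS.1 hg
    exact h a ha

theorem ncard_wS : ((D.cov.wM : Submodule F (Fin 6 → F)) : Set (Fin 6 → F)).ncard = 64 := by
  rw [← Nat.card_coe_set_eq]; exact D.cov.ncard_wM

theorem exists_wBasis : ∃ b : Fin 6 → (Fin 6 → F), (∀ k, b k ∈ D.cov.wM) ∧
    ∀ P : AddSubgroup (Fin 6 → F), (∀ k, b k ∈ P) → ∀ w ∈ D.cov.wM, w ∈ P := by
  let e := Module.finBasisOfFinrankEq F D.cov.wM D.cov.wM_facts.1
  refine ⟨fun k => if h : k.1 < 3 then (e ⟨k.1, h⟩).1 else (om : F) • (e ⟨k.1 - 3, by omega⟩).1, fun k => ?_,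
    fun P hP w hw => ?_⟩
  · show (if h : k.1 < 3 then (e ⟨k.1, h⟩).1 else (om : F) • (e ⟨k.1 - 3, by omega⟩).1) ∈ D.cov.wM
    split
    · exact (e _).2
    · exact D.cov.wM.smul_mem _ (e _).2
  · have he : ∀ (c : F) (j : Fin 3), c • (e j).1 ∈ P := by
      intro c j
      obtain ⟨a, b, rfl⟩ := exists_fe c
      have h1 := hP ⟨j.1, by omega⟩
      have h2 := hP ⟨j.1 + 3, by omega⟩
      simp only [j.2, dite_true, show ¬ j.1 + 3 < 3 by omega, dite_false, Nat.add_sub_cancel, Fin.eta] at h1 h2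
      cases a <;> cases b <;> simp [fe, bF, add_smul, P.zero_mem, h1, h2, P.add_mem]
    have hw' := congrArg Subtype.val (e.sum_repr ⟨w, hw⟩)
    simp only [Submodule.coe_sum, SetLike.val_smul] at hw'
    rw [← hw']
    exact P.sum_mem fun j _ => he _ j

/-- The preimage of the fixed space. -/
noncomputable def P : Subgroup C where
  carrier := {a | a ∈ D.Q ∧ D.φ a ∈ fixA (D.cov.kS)}
  one_mem' := ⟨one_mem _, by rw [D.φ_one]; exact zero_mem _⟩
  mul_mem' {a b} ha hb := ⟨mul_mem ha.1 hb.1, by rw [D.φ_mul _ ha.1 _ hb.1]; exact add_mem ha.2 hb.2⟩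
  inv_mem' {a} ha := ⟨inv_mem ha.1, by rw [D.φ_inv ha.1]; exact ha.2⟩

theorem P_le : D.P ≤ D.Q := fun _ h => h.1

theorem P_sq {a : C} (ha : a ∈ D.P) : a * a = 1 :=
  (D.φ_iso a ha.1).1 (D.cov.wM_iso ((D.mem_fix_wS _).1 ha.2))

theorem P_comm {a b : C} (ha : a ∈ D.P) (hb : b ∈ D.P) : a * b = b * a := by
  have h := D.P_sq (mul_mem ha hb)
  rw [← inv_eq_of_mul_eq_one_right h, _root_.mul_inv_rev, inv_eq_of_mul_eq_one_right (D.P_sq ha),
    inv_eq_of_mul_eq_one_right (D.P_sq hb)]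

theorem e_mem_P : D.e ∈ D.P :=
  ⟨D.e_mem, by rw [(D.φ_zero _ D.e_mem).2 (Or.inr rfl)]; exact zero_mem _⟩

theorem card_space : Nat.card (Fin 6 → F) = 4096 := by
  rw [Nat.card_fun, Nat.card_eq_fintype_card, Nat.card_eq_fintype_card, Setup.card (F := F), Fintype.card_fin]
  norm_num

theorem card_P [Finite C] : Nat.card D.P = 128 := by
  have hs : Function.Surjective D.ψ := fun x => by
    obtain ⟨a, ha, e⟩ := D.φ_surj (Multiplicative.toAdd x)
    exact ⟨⟨a, ha⟩, by show Multiplicative.ofAdd (D.φ a) = x; rw [e]; rfl⟩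
  let W : Subgroup (Multiplicative (Fin 6 → F)) := AddSubgroup.toSubgroup (fixA (D.cov.kS))
  have hW : Nat.card W = 64 := by
    have : Nat.card W = ((D.cov.wM : Submodule F (Fin 6 → F)) : Set (Fin 6 → F)).ncard := by
      rw [← Nat.card_coe_set_eq]
      exact Nat.card_congr ((Multiplicative.toAdd : Multiplicative (Fin 6 → F) ≃ _).subtypeEquiv
        fun x => D.mem_fix_wS _)
    rw [this, D.ncard_wS]
  have h1 : (W.comap D.ψ).index = W.index := W.index_comap_of_surjective hs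
  have h2 := W.card_mul_index
  rw [hW, Nat.card_congr Multiplicative.toAdd, card_space] at h2
  have h3 := (W.comap D.ψ).card_mul_index
  rw [h1, D.cardQ] at h3
  have h4 : Nat.card (W.comap D.ψ) = Nat.card D.P :=
    Nat.card_congr
      { toFun := fun a => ⟨a.1.1, a.1.2, a.2⟩
        invFun := fun a => ⟨⟨a.1, a.2.1⟩, a.2.2⟩
        left_inv := fun a => rfl
        right_inv := fun a => rfl }
  rw [h4] at h3
  have h5 : W.index = 64 := by omega
  rw [h5] at h3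
  omega

theorem card_comap_of_le {A B : Type*} [Group A] [Group B] (f : A →* B) (K : Subgroup B) (hK : K ≤ f.range) :
    Nat.card (K.comap f) = Nat.card f.ker * Nat.card K := by
  have hs : Function.Surjective (f.subgroupComap K) := fun x => by
    obtain ⟨a, ha⟩ := hK x.2
    exact ⟨⟨a, show f a ∈ K from ha ▸ x.2⟩, Subtype.ext ha⟩
  rw [(f.subgroupComap K).ker.card_eq_card_quotient_mul_card_subgroup,
    Nat.card_congr (QuotientGroup.quotientKerEquivOfSurjective _ hs).toEquiv, mul_comm]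
  congr 1
  exact Nat.card_congr
    { toFun := fun a => ⟨a.1.1, congrArg Subtype.val a.2⟩
      invFun := fun a => ⟨⟨a.1, show f a.1 ∈ K by rw [show f a.1 = 1 from a.2]; exact K.one_mem⟩, Subtype.ext a.2⟩
      left_inv := fun a => rfl
      right_inv := fun a => rfl }

theorem card_ker : Nat.card D.ρ.ker = 2 ^ 13 := by
  rw [← D.cardQ]
  exact Nat.card_congr
    { toFun := fun a => ⟨a.1.1, (D.ker_iff a.1).1 a.2⟩
      invFun := fun a => ⟨⟨a.1, D.QM a.2⟩, (D.ker_iff _).2 a.2⟩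
      left_inv := fun a => rfl
      right_inv := fun a => rfl }

/-- The preimage of the elementary subgroup of order sixteen. -/
noncomputable def K : Subgroup C := ((D.cov.kS).comap D.ρ).map D.M.subtype

theorem mem_K {a : C} : a ∈ D.K ↔ ∃ h : a ∈ D.M, D.ρ ⟨a, h⟩ ∈ D.cov.kS := by
  constructor
  · rintro ⟨m, hm, rfl⟩
    exact ⟨m.2, hm⟩
  · rintro ⟨h, hm⟩
    exact ⟨⟨a, h⟩, hm, rfl⟩

theorem card_K : Nat.card D.K = 2 ^ 17 := by
  rw [K, Subgroup.card_map_of_injective (Subgroup.subtype_injective _), card_comap_of_le _ _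
    (D.ρ_range.symm ▸ D.cov.kS_le.trans D.cov.sylS_le), D.card_ker, D.cov.card_kS]
  norm_num

/-- The candidate. -/
noncomputable def A : Subgroup C := D.K ⊓ Subgroup.centralizer (D.P : Set C)

theorem A_le_M : D.A ≤ D.M := fun _ h => (D.mem_K.1 h.1).1

theorem P_le_A : D.P ≤ D.A := by
  intro a ha
  refine ⟨D.mem_K.2 ⟨D.QM ha.1, ?_⟩, Subgroup.mem_centralizer_iff.2 fun b hb => D.P_comm hb ha⟩
  rw [(D.ker_iff ⟨a, D.QM ha.1⟩).2 ha.1]
  exact one_mem _

theorem A_comm_P {a p : C} (ha : a ∈ D.A) (hp : p ∈ D.P) : p * a = a * p :=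
  Subgroup.mem_centralizer_iff.1 ha.2 p hp

theorem A_inf_Q {a : C} (ha : a ∈ D.A) (hq : a ∈ D.Q) : a ∈ D.P := by
  refine ⟨hq, (D.mem_fix_wS _).2 (D.cov.wM_perp fun w hw => ?_)⟩
  obtain ⟨p, hp, rfl⟩ := D.φ_surj w
  have hpP : p ∈ D.P := ⟨hp, (D.mem_fix_wS _).2 hw⟩
  rw [← D.φ_mul a hq p hp, D.φ_iso _ (mul_mem hq hp), D.φ_iso a hq]
  have h : a * p * (a * p) = a * a := by
    calc a * p * (a * p) = a * (p * a) * p := by group
      _ = a * (a * p) * p := by rw [D.A_comm_P ha hpP]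
      _ = a * a * (p * p) := by group
      _ = a * a := by rw [D.P_sq hpP, mul_one]
  rw [h]

theorem K_conj_P {k p : C} (hk : k ∈ D.K) (hp : p ∈ D.P) : k * p * k⁻¹ = p ∨ k * p * k⁻¹ = p * D.e := by
  obtain ⟨hM, hρ⟩ := D.mem_K.1 hk
  refine D.eq_of_φ_eq hp.1 (D.Qn.conj_mem _ hp.1 k) ?_
  rw [show k * p * k⁻¹ = ((⟨k, hM⟩ : D.M) : C) * p * ((⟨k, hM⟩ : D.M) : C)⁻¹ from rfl, D.ρ_act _ p hp.1,
    hp.2 _ hρ]

theorem two_pow_le_card_A [Finite C] : 2 ^ 11 ≤ Nat.card D.A := by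
  classical
  obtain ⟨b, hb, hgen⟩ := D.exists_wBasis
  choose p hp hφ using fun k => D.φ_surj (b k)
  have hpP : ∀ k, p k ∈ D.P := fun k => ⟨hp k, (D.mem_fix_wS _).2 (hφ k ▸ hb k)⟩
  let f : D.K ⧸ D.A.subgroupOf D.K → (Fin 6 → Bool) :=
    fun x j => decide (x.out.1 * p j * (x.out.1)⁻¹ = p j)
  have hf : Function.Injective f := by
    intro x y hxy
    rw [← x.out_eq', ← y.out_eq', QuotientGroup.eq, Subgroup.mem_subgroupOf]
    set k := x.out.1
    set l := y.out.1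
    have hk : k ∈ D.K := x.out.2
    have hl : l ∈ D.K := y.out.2
    show k⁻¹ * l ∈ D.A
    refine ⟨D.K.mul_mem (D.K.inv_mem hk) hl, ?_⟩
    have hcomm : ∀ j, k * p j * k⁻¹ = l * p j * l⁻¹ := by
      intro j
      have hj := congrFun hxy j
      simp only [f] at hj
      rcases D.K_conj_P hk (hpP j) with h1 | h1 <;> rcases D.K_conj_P hl (hpP j) with h2 | h2
      · rw [h1, h2]
      · exfalso
        rw [decide_eq_true h1, eq_comm, decide_eq_true_eq, h2] at hj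
        exact D.e_ne (mul_eq_left.1 hj)
      · exfalso
        rw [decide_eq_true h2, decide_eq_true_eq, h1] at hj
        exact D.e_ne (mul_eq_left.1 hj)
      · rw [h1, h2]
    let S : AddSubgroup (Fin 6 → F) :=
      { carrier := D.φ '' {a | a ∈ D.P ∧ a * (k⁻¹ * l) = (k⁻¹ * l) * a}
        zero_mem' := ⟨1, ⟨one_mem _, by simp⟩, D.φ_one⟩
        add_mem' := by
          rintro _ _ ⟨a, ⟨ha, ha'⟩, rfl⟩ ⟨c, ⟨hc, hc'⟩, rfl⟩
          refine ⟨a * c, ⟨mul_mem ha hc, ?_⟩, D.φ_mul _ ha.1 _ hc.1⟩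
          rw [mul_assoc, hc', ← mul_assoc, ha', mul_assoc]
        neg_mem' := by
          rintro _ ⟨a, ha, rfl⟩
          exact ⟨a, ha, (neg_eq _).symm⟩ }
    have hbS : ∀ j, b j ∈ S := fun j => ⟨p j, ⟨hpP j, by
      have := hcomm j
      calc p j * (k⁻¹ * l) = k⁻¹ * (k * p j * k⁻¹) * l := by group
        _ = k⁻¹ * (l * p j * l⁻¹) * l := by rw [this]
        _ = k⁻¹ * l * p j := by group⟩, hφ j⟩
    refine Subgroup.mem_centralizer_iff.2 fun a ha => ?_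
    obtain ⟨c, ⟨hc, hc'⟩, hce⟩ := hgen S hbS (D.φ a) ((D.mem_fix_wS _).1 ha.2)
    rcases D.eq_of_φ_eq hc.1 ha.1 hce with rfl | rfl
    · exact hc'
    · rw [mul_assoc, ← D.e_comm (k⁻¹ * l), ← mul_assoc, hc', mul_assoc]
  have h := Nat.card_le_card_of_injective f hf
  rw [Nat.card_fun, Nat.card_fin, show Nat.card Bool = 2 by simp] at h
  have h2 := (D.A.subgroupOf D.K).card_eq_card_quotient_mul_card_subgroup
  rw [D.card_K, Nat.card_congr (Subgroup.subgroupOfEquivOfLe (show D.A ≤ D.K from fun _ h => h.1)).toEquiv] at h2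
  have h3 : 2 ^ 17 ≤ 2 ^ 6 * Nat.card D.A := h2.le.trans (Nat.mul_le_mul_right _ h)
  omega

/-- The image of a subgroup of `M`, with the order of its kernel. -/
theorem card_eq_image {B : Subgroup C} (hB : B ≤ D.M) :
    Nat.card B = Nat.card (B ⊓ D.Q : Subgroup C) * Nat.card ((B.subgroupOf D.M).map D.ρ) := by
  let f : B →* SU6 F := D.ρ.comp (Subgroup.inclusion hB)
  have hr : f.range = (B.subgroupOf D.M).map D.ρ := by
    ext x
    constructor
    · rintro ⟨b, rfl⟩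
      exact ⟨Subgroup.inclusion hB b, b.2, rfl⟩
    · rintro ⟨m, hm, rfl⟩
      exact ⟨⟨m.1, hm⟩, rfl⟩
  rw [f.ker.card_eq_card_quotient_mul_card_subgroup,
    Nat.card_congr (QuotientGroup.quotientKerEquivRange f).toEquiv, hr, mul_comm]
  congr 1
  exact Nat.card_congr
    { toFun := fun a => ⟨a.1.1, a.1.2, (D.ker_iff ⟨a.1.1, hB a.1.2⟩).1 a.2⟩
      invFun := fun a => ⟨⟨a.1, a.2.1⟩, (D.ker_iff ⟨a.1, hB a.2.1⟩).2 a.2.2⟩
      left_inv := fun a => rfl
      right_inv := fun a => rfl }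

theorem A_inf : D.A ⊓ D.Q = D.P :=
  le_antisymm (fun _ h => D.A_inf_Q h.1 h.2) (le_inf D.P_le_A D.P_le)

theorem A_image_le : (D.A.subgroupOf D.M).map D.ρ ≤ D.cov.kS := by
  rintro _ ⟨m, hm, rfl⟩
  exact (D.mem_K.1 (show (m : C) ∈ D.A from hm).1).2

theorem card_A_and_image [Finite C] :
    Nat.card D.A = 2 ^ 11 ∧ (D.A.subgroupOf D.M).map D.ρ = D.cov.kS := by
  have h1 := D.card_eq_image D.A_le_M
  rw [D.A_inf, D.card_P] at h1
  have h2 := D.two_pow_le_card_A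
  have h3 : Nat.card ((D.A.subgroupOf D.M).map D.ρ) ≤ 16 :=
    (Subgroup.card_le_of_le D.A_image_le).trans (D.cov.card_kS).le
  refine ⟨by omega, Subgroup.eq_of_le_of_card_ge D.A_image_le ?_⟩
  rw [D.cov.card_kS]
  omega

theorem card_A [Finite C] : Nat.card D.A = 2 ^ 11 := D.card_A_and_image.1

theorem exists_A_over [Finite C] {c : SU6 F} (hc : c ∈ D.cov.kS) :
    ∃ a : C, ∃ h : a ∈ D.A, D.ρ ⟨a, D.A_le_M h⟩ = c := by
  rw [← D.card_A_and_image.2] at hc
  obtain ⟨m, hm, rfl⟩ := hc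
  exact ⟨m, hm, rfl⟩

theorem inv_norm {n : SU6 F} (h : ∀ c ∈ D.cov.kS, n * c * n⁻¹ ∈ D.cov.kS) {c : SU6 F} (hc : c ∈ D.cov.kS) :
    n⁻¹ * c * n ∈ D.cov.kS := by
  obtain ⟨⟨d, hd⟩, e⟩ := ((Finite.injective_iff_surjective (f := fun c : D.cov.kS =>
    (⟨n * c.1 * n⁻¹, h c.1 c.2⟩ : D.cov.kS))).1
    (fun c d h => Subtype.ext (by simpa using congrArg Subtype.val h))) ⟨c, hc⟩
  have e' : n * d * n⁻¹ = c := congrArg Subtype.val e
  rw [← e', show n⁻¹ * (n * d * n⁻¹) * n = d by group]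
  exact hd

theorem conj_P {m : D.M} (h : ∀ c ∈ D.cov.kS, D.ρ m * c * (D.ρ m)⁻¹ ∈ D.cov.kS) {a : C} (ha : a ∈ D.P) :
    (m : C) * a * (m : C)⁻¹ ∈ D.P := by
  refine ⟨D.Qn.conj_mem _ ha.1 _, fun c hc => ?_⟩
  rw [D.ρ_act m a ha.1, Matrix.mulVec_mulVec, ← mat_mul,
    show c * D.ρ m = D.ρ m * ((D.ρ m)⁻¹ * c * D.ρ m) by group, mat_mul, ← Matrix.mulVec_mulVec,
    ha.2 _ (D.inv_norm h hc)]

theorem conj_A {m : D.M} (h : ∀ c ∈ D.cov.kS, D.ρ m * c * (D.ρ m)⁻¹ ∈ D.cov.kS) {a : C} (ha : a ∈ D.A) :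
    (m : C) * a * (m : C)⁻¹ ∈ D.A := by
  obtain ⟨hM, hρ⟩ := D.mem_K.1 ha.1
  refine ⟨D.mem_K.2 ⟨D.Mn.conj_mem _ hM _, ?_⟩, Subgroup.mem_centralizer_iff.2 fun p hp => ?_⟩
  · rw [show (⟨(m : C) * a * (m : C)⁻¹, D.Mn.conj_mem _ hM _⟩ : D.M) = m * ⟨a, hM⟩ * m⁻¹ from rfl,
      map_mul, map_mul, map_inv]
    exact h _ hρ
  · have h' : ∀ c ∈ D.cov.kS, D.ρ m⁻¹ * c * (D.ρ m⁻¹)⁻¹ ∈ D.cov.kS := fun c hc => by
      rw [map_inv, inv_inv]
      exact D.inv_norm h hc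
    have hp' := D.conj_P h' hp
    rw [Subgroup.coe_inv, inv_inv] at hp'
    calc p * ((m : C) * a * (m : C)⁻¹) = (m : C) * (((m : C)⁻¹ * p * (m : C)) * a) * (m : C)⁻¹ := by group
      _ = (m : C) * (a * ((m : C)⁻¹ * p * (m : C))) * (m : C)⁻¹ := by rw [D.A_comm_P ha hp']
      _ = (m : C) * a * (m : C)⁻¹ * p := by group

theorem square_mem [Finite C] {a : C} (ha : a ∈ D.A) : a * a = 1 ∨ a * a = D.e := by
  obtain ⟨t, ht, htv⟩ : ∃ t ∈ D.cov.L, ∀ v, mat t *ᵥ v = (om : F) • v := ⟨_, D.cov.t.2, D.cov.t_act⟩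
  obtain ⟨m0, hm0⟩ := (show t ∈ D.ρ.range from D.ρ_range.symm ▸ ht)
  have om3 : (om : F) * (om * om) = 1 := by
    linear_combination (om : F) * Setup.hom (F := F) + Setup.hom (F := F) + (om : F) * Setup.two (F := F)
  have t3 : t ^ 3 = 1 := mat_ext fun v => by
    rw [pow_three, mat_mul, mat_mul, ← Matrix.mulVec_mulVec, ← Matrix.mulVec_mulVec, htv v, htv, htv,
      smul_smul, smul_smul, mul_assoc, om3, one_smul]
  set x := m0 ^ (2 ^ 14) with hx
  have hρx : D.ρ x = t := by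
    rw [hx, map_pow, hm0, show (2 ^ 14 : ℕ) = 3 * 5461 + 1 by norm_num, pow_succ, pow_mul, t3, one_pow, one_mul]
  have hcommt : ∀ c : SU6 F, t * c = c * t := fun c => ext_mat (Matrix.ext_iff_mulVec.2 fun v => by
    rw [mat_mul, mat_mul, ← Matrix.mulVec_mulVec, ← Matrix.mulVec_mulVec, htv, htv, Matrix.mulVec_smul])
  have hnorm : ∀ c ∈ D.cov.kS, D.ρ x * c * (D.ρ x)⁻¹ ∈ D.cov.kS := fun c hc => by
    rwa [hρx, hcommt c, mul_inv_cancel_right]
  obtain ⟨hM, hρ⟩ := D.mem_K.1 ha.1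
  have ha' := D.conj_A hnorm ha
  set b := (x : C) * a * (x : C)⁻¹
  have hpA : a⁻¹ * b ∈ D.A := mul_mem (inv_mem ha) ha'
  have hpQ : a⁻¹ * b ∈ D.Q := by
    refine (D.ker_iff ⟨a⁻¹ * b, D.A_le_M hpA⟩).1 ?_
    rw [show (⟨a⁻¹ * b, D.A_le_M hpA⟩ : D.M) = ⟨a, hM⟩⁻¹ * (x * ⟨a, hM⟩ * x⁻¹) from rfl,
      map_mul, map_mul, map_mul, map_inv, map_inv, hρx, hcommt, mul_inv_cancel_right, inv_mul_cancel]
  have hp := D.A_inf_Q hpA hpQ
  have hbb : b * b = a * a := by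
    calc b * b = a * ((a⁻¹ * b) * a) * (a⁻¹ * b) := by group
      _ = a * (a * (a⁻¹ * b)) * (a⁻¹ * b) := by rw [D.A_comm_P ha hp]
      _ = a * a * ((a⁻¹ * b) * (a⁻¹ * b)) := by group
      _ = a * a := by rw [D.P_sq hp, mul_one]
  have haa : a * a ∈ D.Q := by
    refine (D.ker_iff ⟨a * a, mul_mem hM hM⟩).1 ?_
    rw [show (⟨a * a, mul_mem hM hM⟩ : D.M) = ⟨a, hM⟩ * ⟨a, hM⟩ from rfl, map_mul]
    exact D.cov.kS_sq hρ
  have h1 : D.φ (a * a) = (om : F) • D.φ (a * a) := by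
    rw [← htv, ← hρx, ← D.ρ_act x _ haa]
    congr 1
    rw [show (x : C) * (a * a) * (x : C)⁻¹ = b * b by simp only [b]; group, hbb]
  refine (D.φ_zero _ haa).1 ?_
  funext j
  have := congrFun h1 j
  simp only [Pi.smul_apply, smul_eq_mul] at this
  have h2 : ((1 : F) - om) * D.φ (a * a) j = 0 := by linear_combination this
  exact (mul_eq_zero.1 h2).resolve_left (sub_ne_zero.2 (Setup.om_ne_one).symm)

theorem A_sq [Finite C] {a : C} (ha : a ∈ D.A) : a * a = 1 := by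
  classical
  rcases D.square_mem ha with h | h
  · exact h
  exfalso
  have key : ∀ b, ∀ hb : b ∈ D.A, D.ρ ⟨b, D.A_le_M hb⟩ ≠ 1 → b * b = D.e := by
    intro b hb hb1
    have ha1 : D.ρ ⟨a, D.A_le_M ha⟩ ≠ 1 := fun e => D.e_ne
      (h.symm.trans (D.P_sq (D.A_inf_Q ha ((D.ker_iff _).1 e))))
    obtain ⟨n, hn, hnK, hne⟩ := D.cov.kS_trans (D.mem_K.1 ha.1).2 (D.mem_K.1 hb.1).2 ha1 hb1
    obtain ⟨m, rfl⟩ := (show n ∈ D.ρ.range from D.ρ_range.symm ▸ hn)
    have hc := D.conj_A hnK ha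
    set c := (m : C) * a * (m : C)⁻¹
    have hpA : b⁻¹ * c ∈ D.A := mul_mem (inv_mem hb) hc
    have hpQ : b⁻¹ * c ∈ D.Q := by
      refine (D.ker_iff ⟨b⁻¹ * c, D.A_le_M hpA⟩).1 ?_
      rw [show (⟨b⁻¹ * c, D.A_le_M hpA⟩ : D.M) =
        ⟨b, D.A_le_M hb⟩⁻¹ * (m * ⟨a, D.A_le_M ha⟩ * m⁻¹) from rfl,
        map_mul, map_mul, map_mul, map_inv, map_inv, hne, inv_mul_cancel]
    have hp := D.A_inf_Q hpA hpQ
    have hcc : c * c = b * b := by
      calc c * c = b * ((b⁻¹ * c) * b) * (b⁻¹ * c) := by group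
        _ = b * (b * (b⁻¹ * c)) * (b⁻¹ * c) := by rw [D.A_comm_P hb hp]
        _ = b * b * ((b⁻¹ * c) * (b⁻¹ * c)) := by group
        _ = b * b := by rw [D.P_sq hp, mul_one]
    rw [← hcc, show c * c = (m : C) * (a * a) * (m : C)⁻¹ by simp only [c]; group, h, D.e_comm,
      mul_inv_cancel_right]
  have pair : ∀ b c, ∀ hb : b ∈ D.A, ∀ hc : c ∈ D.A, D.ρ ⟨b, D.A_le_M hb⟩ ≠ 1 → D.ρ ⟨c, D.A_le_M hc⟩ ≠ 1 →
      D.ρ ⟨b, D.A_le_M hb⟩ ≠ D.ρ ⟨c, D.A_le_M hc⟩ → c * b = b * c * D.e := by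
    intro b c hb hc hb1 hc1 hne
    have hbc := key _ (mul_mem hb hc) (by
      rw [show (⟨b * c, D.A_le_M (mul_mem hb hc)⟩ : D.M) = ⟨b, D.A_le_M hb⟩ * ⟨c, D.A_le_M hc⟩ from rfl,
        map_mul]
      intro e
      refine hne ?_
      rw [eq_inv_of_mul_eq_one_left e, inv_eq_of_mul_eq_one_right (D.cov.kS_sq (D.mem_K.1 hc.1).2)])
    have h1 := key b hb hb1
    have h2 := key c hc hc1
    have he : D.e * D.e = 1 := by
      rw [← D.P_sq D.e_mem_P]
    calc c * b = b⁻¹ * (b * c * (b * c)) * c⁻¹ := by group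
      _ = b⁻¹ * (b * b) * c⁻¹ := by rw [hbc, h1]
      _ = b * (c * c)⁻¹ * c := by group
      _ = b * D.e⁻¹ * c := by rw [h2]
      _ = b * c * D.e := by
        rw [inv_eq_of_mul_eq_one_right he, mul_assoc, ← D.e_comm c, ← mul_assoc]
  -- three independent elements
  have hk16 := D.cov.card_kS
  have : Nontrivial (D.cov.kS) := Finite.one_lt_card_iff_nontrivial.1 (by omega)
  obtain ⟨⟨r1, hr1⟩, hne1⟩ := exists_ne (1 : D.cov.kS)
  have pick : ∀ s : Finset (D.cov.kS), s.card < 16 → ∃ r, r ∉ s := fun s hs => by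
    by_contra hcon
    push Not at hcon
    have : Fintype (D.cov.kS) := Fintype.ofFinite _
    rw [Finset.eq_univ_iff_forall.2 hcon, Finset.card_univ, ← Nat.card_eq_fintype_card, hk16] at hs
    exact lt_irrefl _ hs
  obtain ⟨⟨r2, hr2⟩, hne2⟩ := pick {1, ⟨r1, hr1⟩} (lt_of_le_of_lt Finset.card_le_two (by norm_num))
  obtain ⟨⟨r3, hr3⟩, hne3⟩ := pick {1, ⟨r1, hr1⟩, ⟨r2, hr2⟩, ⟨r1, hr1⟩ * ⟨r2, hr2⟩}
    (lt_of_le_of_lt Finset.card_le_four (by norm_num))
  simp only [Finset.mem_insert, Finset.mem_singleton, not_or] at hne2 hne3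
  have n1 : r1 ≠ 1 := fun e => hne1 (Subtype.ext e)
  have n2 : r2 ≠ 1 := fun e => hne2.1 (Subtype.ext e)
  have n3 : r3 ≠ 1 := fun e => hne3.1 (Subtype.ext e)
  have n12 : r1 ≠ r2 := fun e => hne2.2 (Subtype.ext e.symm)
  have n13 : r1 ≠ r3 := fun e => hne3.2.1 (Subtype.ext e.symm)
  have n23 : r2 ≠ r3 := fun e => hne3.2.2.1 (Subtype.ext e.symm)
  have n123 : r3 ≠ r1 * r2 := fun e => hne3.2.2.2 (Subtype.ext e)
  obtain ⟨a1, h1, e1⟩ := D.exists_A_over hr1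
  obtain ⟨a2, h2, e2⟩ := D.exists_A_over hr2
  obtain ⟨a3, h3, e3⟩ := D.exists_A_over hr3
  have p12 := pair a1 a2 h1 h2 (e1 ▸ n1) (e2 ▸ n2) (by rw [e1, e2]; exact n12)
  have p13 := pair a1 a3 h1 h3 (e1 ▸ n1) (e3 ▸ n3) (by rw [e1, e3]; exact n13)
  have e23 : D.ρ ⟨a2 * a3, D.A_le_M (mul_mem h2 h3)⟩ = r2 * r3 := by
    rw [show (⟨a2 * a3, D.A_le_M (mul_mem h2 h3)⟩ : D.M) = ⟨a2, D.A_le_M h2⟩ * ⟨a3, D.A_le_M h3⟩ from rfl,
      map_mul, e2, e3]
  have p1 := pair a1 (a2 * a3) h1 (mul_mem h2 h3) (e1 ▸ n1)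
    (by rw [e23]; intro e; exact n23 (by rw [eq_inv_of_mul_eq_one_left e, inv_eq_of_mul_eq_one_right (D.cov.kS_sq hr3)]))
    (by
      rw [e1, e23]
      intro e
      refine n123 ?_
      have r22 := D.cov.kS_sq hr2
      have r12 := D.cov.kS_sq (mul_mem hr1 hr2)
      calc r3 = r2 * r2 * r3 := by rw [r22, one_mul]
        _ = r2 * r1 := by rw [mul_assoc, ← e]
        _ = r1 * r2 := by
          rw [← inv_eq_of_mul_eq_one_right r12, _root_.mul_inv_rev, inv_eq_of_mul_eq_one_right r22,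
            inv_eq_of_mul_eq_one_right (D.cov.kS_sq hr1)])
  have he : D.e * D.e = 1 := D.P_sq D.e_mem_P
  have : a1 * (a2 * a3) * D.e = a1 * (a2 * a3) := by
    calc a1 * (a2 * a3) * D.e = a2 * a3 * a1 := p1.symm
      _ = a2 * (a1 * a3 * D.e) := by rw [mul_assoc, p13]
      _ = a2 * a1 * a3 * D.e := by group
      _ = a1 * a2 * D.e * a3 * D.e := by rw [p12]
      _ = a1 * (a2 * a3) * (D.e * D.e) := by
        rw [show a1 * a2 * D.e * a3 = a1 * a2 * (D.e * a3) by group, ← D.e_comm a3]; group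
      _ = a1 * (a2 * a3) := by rw [he, mul_one]
  exact D.e_ne (mul_eq_left.1 this)

theorem isElementaryAbelian_A [Finite C] : Cfsg.IsElementaryAbelian 2 D.A := by
  refine ⟨⟨⟨fun a b => Subtype.ext ?_⟩⟩, fun a ha => by rw [pow_two]; exact D.A_sq ha⟩
  show a.1 * b.1 = b.1 * a.1
  rw [← inv_eq_of_mul_eq_one_right (D.A_sq (mul_mem a.2 b.2)), _root_.mul_inv_rev,
    inv_eq_of_mul_eq_one_right (D.A_sq a.2), inv_eq_of_mul_eq_one_right (D.A_sq b.2)]

/-- A Sylow two-subgroup of `M`. -/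
noncomputable def S0 : Subgroup C := ((D.cov.sylS).comap D.ρ).map D.M.subtype

theorem card_S0 : Nat.card D.S0 = 2 ^ 20 := by
  rw [S0, Subgroup.card_map_of_injective (Subgroup.subtype_injective _), card_comap_of_le _ _
    (D.ρ_range.symm ▸ D.cov.sylS_le), D.card_ker, D.cov.card_sylS]
  norm_num

theorem A_le_S0 : D.A ≤ D.S0 := fun a ha => by
  obtain ⟨h, hρ⟩ := D.mem_K.1 ha.1
  exact ⟨⟨a, h⟩, D.cov.kS_le hρ, rfl⟩

theorem image_le_syl [Finite C] {T : Subgroup C} (hT : IsPGroup 2 T) (hS : D.S0 ≤ T) {a : D.M}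
    (ha : (a : C) ∈ T) : D.ρ a ∈ D.cov.sylS := by
  have : Fact (Nat.Prime 2) := ⟨Nat.prime_two⟩
  set R := (T.subgroupOf D.M).map D.ρ
  have hR : IsPGroup 2 R := by
    refine IsPGroup.map ?_ D.ρ
    exact IsPGroup.comap_of_injective hT D.M.subtype (Subgroup.subtype_injective _)
  have hle : D.cov.sylS ≤ R := by
    intro c hc
    obtain ⟨m, rfl⟩ := (show c ∈ D.ρ.range from D.ρ_range.symm ▸ D.cov.sylS_le hc)
    exact ⟨m, hS ⟨m, hc, rfl⟩, rfl⟩
  have hRsub : R ≤ D.cov.L := by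
    rintro _ ⟨m, -, rfl⟩
    exact D.ρ_range ▸ ⟨m, rfl⟩
  obtain ⟨k, hk⟩ := IsPGroup.iff_card.1 hR
  have hdvd : 2 ^ k ∣ 3 * 443520 := by rw [← hk, ← D.cov.card_L]; exact Subgroup.card_dvd_of_le hRsub
  have hk7 : k ≤ 7 := by
    by_contra hlt
    have := (Nat.pow_dvd_pow 2 (show 8 ≤ k by omega)).trans hdvd
    norm_num at this
  have heq : D.cov.sylS = R := Subgroup.eq_of_le_of_card_ge hle (by
    rw [hk, D.cov.card_sylS, show (128 : ℕ) = 2 ^ 7 by norm_num]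
    exact Nat.pow_le_pow_right (by norm_num) hk7)
  rw [heq]
  exact ⟨a, ha, rfl⟩

/-- An elementary subgroup of a Sylow subgroup over `S0` is no larger than `A`, and equality forces `A`. -/
theorem elementary_le [Finite C] {T : Subgroup C} (hT : IsPGroup 2 T) (hS : D.S0 ≤ T) {B : Subgroup C}
    (hB : B ≤ T) (h2 : ∀ b ∈ B, b * b = 1) :
    Nat.card B ≤ 2 ^ 11 ∧ (Nat.card B = 2 ^ 11 → B = D.A) := by
  classical
  have hcomm : ∀ a ∈ B, ∀ b ∈ B, a * b = b * a := fun a ha b hb => by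
    rw [← inv_eq_of_mul_eq_one_right (h2 _ (mul_mem ha hb)), _root_.mul_inv_rev,
      inv_eq_of_mul_eq_one_right (h2 _ ha), inv_eq_of_mul_eq_one_right (h2 _ hb)]
  set B0 := B ⊓ D.M with hB0
  set R := (B0.subgroupOf D.M).map D.ρ with hR
  have hB0card : Nat.card B0 = Nat.card (B0 ⊓ D.Q : Subgroup C) * Nat.card R := D.card_eq_image inf_le_right
  have hinf : B0 ⊓ D.Q = B ⊓ D.Q := by
    rw [hB0, inf_assoc, inf_eq_right.2 D.QM]
  rw [hinf] at hB0card
  -- the image in the hermitian space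
  let S : AddSubgroup (Fin 6 → F) :=
    { carrier := D.φ '' {b | b ∈ B ⊓ D.Q}
      zero_mem' := ⟨1, (B ⊓ D.Q).one_mem, D.φ_one⟩
      add_mem' := by
        rintro _ _ ⟨a, ha, rfl⟩ ⟨b, hb, rfl⟩
        exact ⟨a * b, (B ⊓ D.Q).mul_mem ha hb, D.φ_mul _ ha.2 _ hb.2⟩
      neg_mem' := by
        rintro _ ⟨a, ha, rfl⟩
        exact ⟨a, ha, (neg_eq _).symm⟩ }
  have hBQ : Nat.card (B ⊓ D.Q : Subgroup C) ≤ 2 * Nat.card S := by
    have hsel : ∀ s : S, ∃ a, a ∈ B ⊓ D.Q ∧ D.φ a = s.1 := fun s => by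
      obtain ⟨a, ha, e⟩ := s.2
      exact ⟨a, ha, e⟩
    choose sel hsel1 hsel2 using hsel
    let f : (B ⊓ D.Q : Subgroup C) → Bool × S := fun b =>
      (decide (b.1 = sel ⟨D.φ b.1, b.1, b.2, rfl⟩), ⟨D.φ b.1, b.1, b.2, rfl⟩)
    have hf : Function.Injective f := by
      intro a b h
      simp only [f, Prod.mk.injEq] at h
      obtain ⟨hd, hs⟩ := h
      rw [← hs] at hd
      set c := sel ⟨D.φ a.1, a.1, a.2, rfl⟩
      have hca := D.eq_of_φ_eq (hsel1 ⟨D.φ a.1, a.1, a.2, rfl⟩).2 a.2.2 (hsel2 _)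
      have hcb := D.eq_of_φ_eq (hsel1 ⟨D.φ a.1, a.1, a.2, rfl⟩).2 b.2.2
        ((hsel2 _).trans (congrArg Subtype.val hs))
      refine Subtype.ext ?_
      rcases hca with ea | ea <;> rcases hcb with eb | eb
      · rw [ea, eb]
      · exfalso
        rw [decide_eq_true ea, eq_comm, decide_eq_true_eq, eb] at hd
        exact D.e_ne (mul_eq_left.1 hd)
      · exfalso
        rw [decide_eq_true eb, decide_eq_true_eq, ea] at hd
        exact D.e_ne (mul_eq_left.1 hd)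
      · rw [ea, eb]
    have := Nat.card_le_card_of_injective f hf
    rwa [Nat.card_prod, show Nat.card Bool = 2 by simp] at this
  have hiso : ∀ s ∈ S, hermForm 6 F 2 s s = 0 := by
    rintro _ ⟨b, hb, rfl⟩
    exact (D.φ_iso b hb.2).2 (h2 b hb.1)
  have hSfix : S ≤ fixA R := by
    rintro _ ⟨b, hb, rfl⟩ r ⟨m, hm, rfl⟩
    rw [← D.ρ_act m b hb.2, hcomm m hm.1 b hb.1, mul_inv_cancel_right]
  have hRsyl : R ≤ D.cov.sylS := by
    rintro _ ⟨m, hm, rfl⟩
    exact D.image_le_syl hT hS (hB hm.1)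
  have hR2 : ∀ r ∈ R, r * r = 1 := by
    rintro _ ⟨m, hm, rfl⟩
    rw [← map_mul, show m * m = 1 from Subtype.ext (h2 _ hm.1), map_one]
  have hR128 : Nat.card R ≤ 128 := (Subgroup.card_le_of_le hRsyl).trans (D.cov.card_sylS).le
  have hSle : Nat.card S ≤ Nat.card (fixA R) := Nat.card_mono (Set.toFinite _) hSfix
  have hSpos : 0 < Nat.card S := Nat.card_pos
  -- the outer case
  have houter : ¬ B ≤ D.M → Nat.card S * Nat.card S ≤ Nat.card (fixA R) := by
    intro hout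
    obtain ⟨c, hc, hcM⟩ := SetLike.not_le_iff_exists.1 hout
    have hz : ∀ u ∈ S, ∀ v ∈ S, u = (om : F) • v → v = 0 := by
      rintro _ ⟨a, ha, rfl⟩ _ ⟨b, hb, rfl⟩ h
      have h' := D.anti c hcM b hb.2 a ha.2 h
      rw [hcomm c hc a ha.1, mul_inv_cancel_right, hcomm c hc b hb.1, mul_inv_cancel_right, h] at h'
      funext j
      have := congrFun h' j
      simp only [Pi.smul_apply, smul_eq_mul] at this
      have h3 : ((om : F) - om * om) * D.φ b j = 0 := by linear_combination this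
      refine (mul_eq_zero.1 h3).resolve_left fun e => Setup.om_ne_one (F := F) ?_
      rcases mul_eq_zero.1 (show (om : F) * (1 - om) = 0 by linear_combination e) with e' | e'
      · exact absurd e' Setup.om_ne_zero
      · exact (sub_eq_zero.1 e').symm
    have hsm : ∀ v ∈ fixA R, (om : F) • v ∈ fixA R := fun v hv r hr => by rw [Matrix.mulVec_smul, hv r hr]
    let f : S × S → fixA R := fun p =>
      ⟨p.1.1 + (om : F) • p.2.1, add_mem (hSfix p.1.2) (hsm _ (hSfix p.2.2))⟩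
    have hf : Function.Injective f := by
      rintro ⟨u, v⟩ ⟨u', v'⟩ h
      have h' : u.1 + (om : F) • v.1 = u'.1 + (om : F) • v'.1 := congrArg Subtype.val h
      have hd : u.1 - u'.1 = (om : F) • (v'.1 - v.1) := by
        rw [smul_sub, sub_eq_sub_iff_add_eq_add, h', add_comm]
      have hv := sub_eq_zero.1 (hz _ (sub_mem u.2 u'.2) _ (sub_mem v'.2 v.2) hd)
      rw [hv, sub_self, smul_zero, sub_eq_zero] at hd
      exact Prod.ext (Subtype.ext hd) (Subtype.ext hv.symm)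
    have := Nat.card_le_card_of_injective f hf
    rwa [Nat.card_prod] at this
  have hindex : Nat.card B ≤ 2 * Nat.card B0 := by
    have h := (B0.subgroupOf B).card_eq_card_quotient_mul_card_subgroup
    rw [Nat.card_congr (Subgroup.subgroupOfEquivOfLe (inf_le_left : B0 ≤ B)).toEquiv] at h
    rw [h]
    refine Nat.mul_le_mul_right _ ?_
    have hd : (B0.subgroupOf B).index ≤ D.M.index := by
      rw [hB0, Subgroup.inf_subgroupOf_left]
      exact Nat.le_of_dvd (by rw [D.M2]; norm_num) (by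
        have : D.M.Normal := D.Mn
        exact D.M.relIndex_dvd_index_of_normal B)
    rw [D.M2] at hd
    exact hd
  have hinner : B ≤ D.M → Nat.card B = Nat.card B0 := fun h => by rw [hB0, inf_eq_left.2 h]
  have hS64 : Nat.card S ≤ 64 := (singular_facts S hiso).1
  have hfix : {v : Fin 6 → F | ∀ r ∈ R, mat r *ᵥ v = v}.ncard = Nat.card (fixA R) :=
    (Nat.card_coe_set_eq _).symm
  have hle0 : Nat.card (B ⊓ D.Q : Subgroup C) * Nat.card R ≤ 2 * Nat.card S * Nat.card R :=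
    Nat.mul_le_mul_right _ hBQ
  rcases D.cov.elementary_cases R hRsyl hR2 with hk | hsmall | ⟨h16, hlt⟩
  · -- the image is the distinguished subgroup
    have hsub : B ⊓ D.Q ≤ D.P := fun b hb => ⟨hb.2, hk ▸ hSfix ⟨b, hb, rfl⟩⟩
    have h128 : Nat.card (B ⊓ D.Q : Subgroup C) ≤ 128 := (Subgroup.card_le_of_le hsub).trans D.card_P.le
    rw [hk, D.cov.card_kS] at hB0card
    by_cases hin : B ≤ D.M
    · rw [hinner hin, hB0card]
      refine ⟨by omega, fun he => ?_⟩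
      have hP : B ⊓ D.Q = D.P := Subgroup.eq_of_le_of_card_ge hsub (by rw [D.card_P]; omega)
      have hle : B ≤ D.A := fun b hb => by
        refine ⟨D.mem_K.2 ⟨hin hb, hk ▸ ⟨⟨b, hin hb⟩, ⟨hb, hin hb⟩, rfl⟩⟩,
          Subgroup.mem_centralizer_iff.2 fun p hp => ?_⟩
        rw [← hP] at hp
        exact hcomm p hp.1 b hb
      refine Subgroup.eq_of_le_of_card_ge hle ?_
      rw [D.card_A, hinner hin, hB0card]
      omega
    · have hlt : Nat.card B < 2 ^ 11 := by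
        have := houter hin
        have hf : Nat.card (fixA R) = 64 := by
          rw [hk, ← D.ncard_wS, ← Nat.card_coe_set_eq]
          exact Nat.card_congr (Equiv.subtypeEquivRight fun v => D.mem_fix_wS v)
        have : Nat.card S ≤ 8 := by nlinarith
        omega
      exact ⟨hlt.le, fun e => absurd e hlt.ne⟩
  · -- small image
    have hlt : Nat.card B < 2 ^ 11 := by
      by_cases hin : B ≤ D.M
      · rw [hinner hin, hB0card]
        have := Nat.mul_le_mul (Nat.mul_le_mul_left 2 hS64) hsmall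
        omega
      · have h1 := houter hin
        rcases eq_or_ne R ⊥ with hbot | hne
        · rw [hbot, Subgroup.card_bot] at hle0 hB0card
          omega
        · have hsq : Nat.card (fixA R) < 4096 := by
            obtain ⟨⟨r, hr⟩, hr1⟩ := (Subgroup.ne_bot_iff_exists_ne_one.1 hne)
            rw [← card_space (F := F), ← hfix, ← Set.ncard_univ]
            refine Set.ncard_lt_ncard (Set.ssubset_univ_iff.2 fun h => ?_) (Set.toFinite _)
            refine hr1 (Subtype.ext (mat_ext fun v => ?_))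
            have hv : v ∈ ({v | ∀ r ∈ R, mat r *ᵥ v = v} : Set (Fin 6 → F)) := by rw [h]; trivial
            exact hv r hr
          have hS63 : Nat.card S ≤ 63 := by nlinarith
          have := Nat.mul_le_mul (Nat.mul_le_mul_left 2 hS63) hsmall
          omega
    exact ⟨hlt.le, fun e => absurd e hlt.ne⟩
  · -- an image of order sixteen with a smaller fixed space
    rw [hfix] at hlt
    rw [h16] at hle0 hB0card
    have hS63 : Nat.card S ≤ 63 := by omega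
    have hBlt : Nat.card B < 2 ^ 11 := by
      by_cases hin : B ≤ D.M
      · rw [hinner hin, hB0card]; omega
      · have h1 := houter hin
        have : Nat.card S ≤ 7 := by nlinarith
        omega
    exact ⟨hBlt.le, fun e => absurd e hBlt.ne⟩

/-- The unique largest elementary abelian subgroup of a Sylow two-subgroup. -/
theorem sylow_unique_max [Finite C] (T : Sylow 2 C) :
    ∃ A : Subgroup ↥(T : Subgroup C), Cfsg.maxElementaryAbelianSubgroups 2 ↥(T : Subgroup C) = {A} ∧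
      Nat.card A = 2 ^ 11 ∧ Nat.card ↥(A.map (T : Subgroup C).subtype ⊓ D.Q) = 2 ^ 7 ∧
      Nat.card ↥((A.map (T : Subgroup C).subtype).map (QuotientGroup.mk' D.Q)) = 16 := by
  have : Fact (Nat.Prime 2) := ⟨Nat.prime_two⟩
  have : D.Q.Normal := D.Qn
  have hS0p : IsPGroup 2 D.S0 := IsPGroup.of_card D.card_S0
  obtain ⟨T', hT'⟩ := hS0p.exists_le_sylow
  obtain ⟨g, hg⟩ := MulAction.exists_smul_eq C T T'
  have hmem : ∀ x : C, x ∈ (T : Subgroup C) ↔ g * x * g⁻¹ ∈ (T' : Subgroup C) := by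
    intro x
    rw [← hg, Sylow.coe_subgroup_smul, Subgroup.mem_pointwise_smul_iff_inv_smul_mem, MulAut.smul_def,
      ← map_inv, MulAut.conj_apply, inv_inv]
    rw [show g⁻¹ * (g * x * g⁻¹) * g = x by group]
  set A0 := D.A.map (MulAut.conj g⁻¹).toMonoidHom with hA0
  have hA0T : A0 ≤ (T : Subgroup C) := by
    rintro _ ⟨a, ha, rfl⟩
    rw [hmem]
    show g * (g⁻¹ * a * (g⁻¹)⁻¹) * g⁻¹ ∈ _
    rw [show g * (g⁻¹ * a * (g⁻¹)⁻¹) * g⁻¹ = a by group]
    exact hT' (D.A_le_S0 ha)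
  set A := A0.subgroupOf (T : Subgroup C) with hAdef
  have hcardA0 : Nat.card A0 = 2 ^ 11 := by
    rw [hA0, Subgroup.card_map_of_injective (MulAut.conj g⁻¹).injective, D.card_A]
  have hcardA : Nat.card A = 2 ^ 11 := by
    rw [hAdef, Nat.card_congr (Subgroup.subgroupOfEquivOfLe hA0T).toEquiv, hcardA0]
  have hAel : Cfsg.IsElementaryAbelian 2 A := by
    have h2 : ∀ a ∈ A, a * a = 1 := by
      intro a ha
      obtain ⟨b, hb, e⟩ := (ha : (a : C) ∈ A0)
      refine Subtype.ext ?_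
      show (a : C) * (a : C) = 1
      have e' : (MulAut.conj g⁻¹).toMonoidHom b = (a : C) := e
      rw [← e', ← map_mul, D.A_sq hb, map_one]
    refine ⟨⟨⟨fun a b => Subtype.ext ?_⟩⟩, fun a ha => by rw [pow_two]; exact h2 a ha⟩
    show a.1 * b.1 = b.1 * a.1
    rw [← inv_eq_of_mul_eq_one_right (h2 _ (mul_mem a.2 b.2)), _root_.mul_inv_rev,
      inv_eq_of_mul_eq_one_right (h2 _ a.2), inv_eq_of_mul_eq_one_right (h2 _ b.2)]
  have hbound : ∀ B : Subgroup ↥(T : Subgroup C), Cfsg.IsElementaryAbelian 2 B →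
      Nat.card B ≤ 2 ^ 11 ∧ (Nat.card B = 2 ^ 11 → B = A) := by
    intro B hB
    set B' := (B.map (T : Subgroup C).subtype).map (MulAut.conj g).toMonoidHom with hB'
    have hBT' : B' ≤ (T' : Subgroup C) := by
      rintro _ ⟨_, ⟨b, hb, rfl⟩, rfl⟩
      exact (hmem _).1 b.2
    have hB2 : ∀ b ∈ B', b * b = 1 := by
      rintro _ ⟨_, ⟨b, hb, rfl⟩, rfl⟩
      rw [← map_mul, ← map_mul, ← pow_two, hB.2 b hb, map_one, map_one]
    have hcard : Nat.card B' = Nat.card B := by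
      rw [hB', Subgroup.card_map_of_injective (MulAut.conj g).injective,
        Subgroup.card_map_of_injective (Subgroup.subtype_injective _)]
    obtain ⟨h1, h2⟩ := D.elementary_le T'.isPGroup' hT' hBT' hB2
    refine ⟨hcard ▸ h1, fun he => ?_⟩
    have hA := h2 (hcard.trans he)
    refine Subgroup.eq_of_le_of_card_ge (fun b hb => ?_) (by rw [he, hcardA])
    show (b : C) ∈ A0
    have : g * (b : C) * g⁻¹ ∈ D.A := hA ▸ ⟨_, ⟨b, hb, rfl⟩, rfl⟩
    refine ⟨_, this, ?_⟩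
    show g⁻¹ * (g * (b : C) * g⁻¹) * (g⁻¹)⁻¹ = b
    group
  have hmap : A.map (T : Subgroup C).subtype = A0 := by
    rw [hAdef, Subgroup.map_subgroupOf_eq_of_le hA0T]
  have hcap : Nat.card ↥(A0 ⊓ D.Q) = 2 ^ 7 := by
    have h : A0 ⊓ D.Q = (D.A ⊓ D.Q).map (MulAut.conj g⁻¹).toMonoidHom := by
      ext x
      constructor
      · rintro ⟨⟨a, ha, rfl⟩, hQ⟩
        refine ⟨a, ⟨ha, ?_⟩, rfl⟩
        have hQ' : g * (g⁻¹ * a * (g⁻¹)⁻¹) * g⁻¹ ∈ D.Q := D.Qn.conj_mem _ hQ g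
        rwa [show g * (g⁻¹ * a * (g⁻¹)⁻¹) * g⁻¹ = a by group] at hQ'
      · rintro ⟨a, ⟨ha, hQ⟩, rfl⟩
        exact ⟨⟨a, ha, rfl⟩, D.Qn.conj_mem _ hQ g⁻¹⟩
    rw [h, Subgroup.card_map_of_injective (MulAut.conj g⁻¹).injective, D.A_inf, D.card_P]
    norm_num
  refine ⟨A, ?_, hcardA, by rw [hmap]; exact hcap, ?_⟩
  · ext B
    rw [Set.mem_singleton_iff]
    constructor
    · rintro ⟨hB, hmax⟩
      obtain ⟨h1, h2⟩ := hbound B hB
      exact h2 (le_antisymm h1 (hcardA ▸ hmax A hAel))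
    · rintro rfl
      exact ⟨hAel, fun B hB => (hbound B hB).1.trans hcardA.ge⟩
  · rw [hmap]
    let f := (QuotientGroup.mk' D.Q).comp A0.subtype
    have hr : f.range = A0.map (QuotientGroup.mk' D.Q) := by
      rw [MonoidHom.range_comp, Subgroup.range_subtype]
    have hk : Nat.card f.ker = Nat.card ↥(A0 ⊓ D.Q) := Nat.card_congr
      { toFun := fun a => ⟨a.1.1, a.1.2, (QuotientGroup.eq_one_iff _).1 a.2⟩
        invFun := fun a => ⟨⟨a.1, a.2.1⟩, (QuotientGroup.eq_one_iff _).2 a.2.2⟩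
        left_inv := fun a => rfl
        right_inv := fun a => rfl }
    have h := f.ker.card_eq_card_quotient_mul_card_subgroup
    rw [Nat.card_congr (QuotientGroup.quotientKerEquivRange f).toEquiv, hr, hk, hcap, hcardA0] at h
    omega

end Ext

end Cfsg.Agent.H66.JFour
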