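import Cfsg.Agent.H66.JFour.Check

/-!
# A Sylow two-subgroup and an elementary subgroup of order sixteen in the Mathieu group on 22 points
-/

set_option autoImplicit false
set_option maxRecDepth 20000
set_option maxHeartbeats 400000

namespace Cfsg.Agent.H66.JFour

open Cfsg Cfsg.Agent.H12 MulAction

/-- The group. -/
abbrev MT : Type := ↥Spor.M22

theorem pt_last : pt 23 = (none : GolayPt) := by decide +kernel

theorem pt_first : pt 0 = (some 0 : GolayPt) := by decide +kernel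

/-! ### Members and their codes -/

/-- The code of a member. -/
def cd (x : MT) : ℕ := code (x : Equiv.Perm GolayPt)

theorem cd_inj : Function.Injective cd := fun a b h => by
  have h' := congrArg permOf h
  simp only [cd, permOf_code] at h'
  exact Subtype.ext h'

theorem cd_mul (a b : MT) : cd (a * b) = pmul (cd a) (cd b) := by
  have ha : permOf (cd a) = (a : Equiv.Perm GolayPt) := permOf_code _
  have hb : permOf (cd b) = (b : Equiv.Perm GolayPt) := permOf_code _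
  have hs := pmul_spec (P := cd a) (Q := cd b) (isPerm_code _) (isPerm_code _)
  show code ((a : Equiv.Perm GolayPt) * b) = _
  rw [← ha, ← hb, ← hs.2]
  refine congrArg pack (List.map_congr_left fun i hi => ?_)
  rw [List.mem_range] at hi
  rw [permOf_pt hs.1 hi, idx_pt (app_lt hs.1 hi), app_pmul hi]

theorem cd_one : cd 1 = pone := by
  show pack _ = pack _
  congr 1

theorem exists_el {P : ℕ} (h : okC P = true) : ∃ x : MT, cd x = P := by
  simp only [okC, Bool.and_eq_true] at h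
  obtain ⟨⟨⟨h1, h2⟩, h3⟩, h4⟩ := h
  have hP : isPerm P = true := by
    rw [fixesCode, Bool.and_eq_true] at h1
    exact h1.1
  have f23 : permOf P (pt 23) = pt 23 := (permOf_fixed_iff hP (by norm_num)).2 (Nat.eq_of_beq_eq_true h2)
  have f0 : permOf P (pt 0) = pt 0 := (permOf_fixed_iff hP (by norm_num)).2 (Nat.eq_of_beq_eq_true h3)
  have hm : permOf P ∈ Spor.M22 :=
    Subgroup.mem_inf.2 ⟨Subgroup.mem_inf.2 ⟨permOf_mem_M24 h1, mem_stabilizer_iff.2 (pt_last ▸ f23)⟩, mem_stabilizer_iff.2 (pt_first ▸ f0)⟩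
  refine ⟨⟨permOf P, hm⟩, ?_⟩
  show code (permOf P) = P
  conv_rhs => rw [← Nat.eq_of_beq_eq_true h4]
  refine congrArg pack (List.map_congr_left fun i hi => ?_)
  rw [List.mem_range] at hi
  rw [permOf_pt hP hi, idx_pt (app_lt hP hi)]
  exact (congrArg (app P) (app_pone i hi)).symm

theorem exists_el_list {l : List ℕ} (h : l.all okC = true) {P : ℕ} (hP : P ∈ l) : ∃ x : MT, cd x = P :=
  exists_el (List.all_eq_true.1 h P hP)

theorem tab_spec :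
    (∀ P ∈ aL, ∃ x : MT, cd x = P) ∧ (∀ P ∈ sGen, ∃ x : MT, cd x = P) ∧ (∀ P ∈ sL, ∃ x : MT, cd x = P) ∧
      (∀ p ∈ trL, (∃ x : MT, cd x = p.1) ∧ ∃ x : MT, cd x = p.2) ∧ (∃ x : MT, cd x = aBase) ∧
      ((∃ x : MT, cd x = g1c) ∧ ∃ x : MT, cd x = g2c) ∧
      ((∃ x : MT, cd x = nonComm.1) ∧ ∃ x : MT, cd x = nonComm.2) ∧
      ∀ d ∈ dL, (∃ x : MT, cd x = d.1) ∧ (∃ x : MT, cd x = d.2.1) ∧ (∃ x : MT, cd x = d.2.2.1) ∧
        (∃ x : MT, cd x = d.2.2.2.1) ∧ (∃ x : MT, cd x = d.2.2.2.2.1) ∧ ∃ x : MT, cd x = d.2.2.2.2.2 := by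
  have h := tab_ok
  simp only [tabOK, Bool.and_eq_true, List.all_eq_true] at h
  obtain ⟨⟨⟨⟨⟨⟨⟨⟨⟨h1, h2⟩, h3⟩, h4⟩, h5⟩, h6⟩, h7⟩, h8⟩, h9⟩, h10⟩ := h
  exact ⟨fun P hP => exists_el (h1 P hP), fun P hP => exists_el (h2 P hP), fun P hP => exists_el (h3 P hP),
    fun p hp => ⟨exists_el (h4 p hp).1, exists_el (h4 p hp).2⟩, exists_el h5, ⟨exists_el h6, exists_el h7⟩,
    ⟨exists_el h8, exists_el h9⟩, fun d hd => ⟨exists_el (h10 d hd).1.1.1.1.1, exists_el (h10 d hd).1.1.1.1.2,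
      exists_el (h10 d hd).1.1.1.2, exists_el (h10 d hd).1.1.2, exists_el (h10 d hd).1.2, exists_el (h10 d hd).2⟩⟩

/-- The subgroup of members with codes in a multiplicatively closed list. -/
def listGrp (l : List ℕ) (h1 : pone ∈ l) (hm : ∀ a ∈ l, ∀ b ∈ l, pmul a b ∈ l) : Subgroup MT :=
  subgroupOfIdempotent {x | cd x ∈ l} ⟨1, by show cd 1 ∈ l; rw [cd_one]; exact h1⟩ <| by
    ext x
    constructor
    · rintro ⟨a, ha, b, hb, rfl⟩
      show cd (a * b) ∈ l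
      rw [cd_mul]
      exact hm _ ha _ hb
    · intro hx
      exact ⟨x, hx, 1, by show cd 1 ∈ l; rw [cd_one]; exact h1, mul_one x⟩

theorem mem_listGrp {l : List ℕ} {h1 : pone ∈ l} {hm : ∀ a ∈ l, ∀ b ∈ l, pmul a b ∈ l} {x : MT} :
    x ∈ listGrp l h1 hm ↔ cd x ∈ l := Iff.rfl

theorem card_listGrp {l : List ℕ} {h1 : pone ∈ l} {hm : ∀ a ∈ l, ∀ b ∈ l, pmul a b ∈ l}
    (hn : l.Nodup) (hel : ∀ P ∈ l, ∃ x : MT, cd x = P) : Nat.card (listGrp l h1 hm) = l.length := by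
  choose f hf using hel
  rw [← Nat.card_fin l.length]
  symm
  refine Nat.card_eq_of_bijective (fun j => (⟨f l[j.1] (List.getElem_mem j.2),
      mem_listGrp.2 (by rw [hf]; exact List.getElem_mem j.2)⟩ : listGrp l h1 hm)) ⟨fun a b h => ?_, fun x => ?_⟩
  · have h' := congrArg (fun y : listGrp l h1 hm => cd y.1) h
    simp only [hf] at h'
    exact Fin.ext (hn.getElem_inj_iff.1 h')
  · obtain ⟨n, hn', e⟩ := List.getElem_of_mem (mem_listGrp.1 x.2)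
    exact ⟨⟨n, hn'⟩, Subtype.ext (cd_inj ((hf _ _).trans e))⟩

theorem one_mem_aL : pone ∈ aL := by
  have h := a_ok
  simp only [aOK, Bool.and_eq_true] at h
  rw [← Nat.eq_of_beq_eq_true h.1.1.1.2, List.getD_eq_getElem?_getD,
    List.getElem?_eq_getElem (show 0 < aL.length by rw [Nat.eq_of_beq_eq_true h.1.1.1.1]; norm_num)]
  exact List.getElem_mem _

theorem aL_mul : ∀ a ∈ aL, ∀ b ∈ aL, pmul a b ∈ aL := by
  have h := a_ok
  simp only [aOK, Bool.and_eq_true, List.all_eq_true, memC_iff] at h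
  exact fun a ha => (h.2 a ha).2

/-- The elementary subgroup. -/
def sixteen : Subgroup MT := listGrp aL one_mem_aL aL_mul

theorem mem_sixteen {x : MT} : x ∈ sixteen ↔ cd x ∈ aL := Iff.rfl

theorem card_sixteen : Nat.card sixteen = 16 := by
  have h := a_ok
  simp only [aOK, Bool.and_eq_true] at h
  exact (card_listGrp aL_nodup tab_spec.1).trans (Nat.eq_of_beq_eq_true h.1.1.1.1)

theorem sixteen_sq {x : MT} (hx : x ∈ sixteen) : x * x = 1 := by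
  have h := a_ok
  simp only [aOK, Bool.and_eq_true, List.all_eq_true] at h
  refine cd_inj ?_
  rw [cd_mul, cd_one]
  exact Nat.eq_of_beq_eq_true (h.2 _ hx).1.1

theorem s_spec : (sL.length = 128 ∧ pone ∈ sL) ∧
    (∀ k < 127, (sEdge.getD k (0, 0)).1 < k + 1 ∧ (sEdge.getD k (0, 0)).2 < 3 ∧
      sL.getD (k + 1) 0 = pmul (sGen.getD (sEdge.getD k (0, 0)).2 0) (sL.getD (sEdge.getD k (0, 0)).1 0)) ∧
    ∀ g ∈ sGen, (∀ s ∈ sL, pmul g s ∈ sL) ∧ ∀ a ∈ aL, ∃ b ∈ aL, pmul g a = pmul b g := by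
  have h := s_ok
  simp only [sOK, Bool.and_eq_true, List.all_eq_true, memC_iff, List.mem_range, List.mem_map] at h
  obtain ⟨⟨⟨⟨h1, h2⟩, -⟩, h3⟩, h4⟩ := h
  refine ⟨⟨Nat.eq_of_beq_eq_true h1, ?_⟩, fun k hk => ⟨?_, ?_, Nat.eq_of_beq_eq_true (h3 k hk).2⟩, fun g hg => ⟨(h4 g hg).1,
    fun a ha => ?_⟩⟩
  · rw [← Nat.eq_of_beq_eq_true h2, List.getD_eq_getElem?_getD,
      List.getElem?_eq_getElem (show 0 < sL.length by rw [Nat.eq_of_beq_eq_true h1]; norm_num)]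
    exact List.getElem_mem _
  · exact Nat.blt_eq.mp (h3 k hk).1.1
  · exact Nat.blt_eq.mp (h3 k hk).1.2
  · obtain ⟨b, hb, e⟩ := (h4 g hg).2 a ha
    exact ⟨b, hb, e.symm⟩

/-- Induction along the spanning tree. -/
theorem sL_induction {Φ : MT → Prop} (h1 : Φ 1)
    (hg : ∀ g x : MT, cd g ∈ sGen → cd x ∈ sL → Φ x → Φ (g * x)) : ∀ x : MT, cd x ∈ sL → Φ x := by
  obtain ⟨⟨hlen, -⟩, hedge, hgen⟩ := s_spec
  have h0 : sL.getD 0 0 = pone := by
    have h := s_ok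
    simp only [sOK, Bool.and_eq_true] at h
    exact Nat.eq_of_beq_eq_true h.1.1.1.2
  have key : ∀ n < 128, ∀ x : MT, cd x = sL.getD n 0 → Φ x := by
    intro n
    induction n using Nat.strong_induction_on with
    | _ n ih =>
      intro hn x hx
      rcases Nat.eq_zero_or_pos n with rfl | hpos
      · rw [h0, ← cd_one] at hx
        rw [cd_inj hx]; exact h1
      · obtain ⟨k, rfl⟩ : ∃ k, n = k + 1 := ⟨n - 1, by omega⟩
        obtain ⟨hp, hj, he⟩ := hedge k (by omega)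
        have hgm : sGen.getD (sEdge.getD k (0, 0)).2 0 ∈ sGen := by
          rw [List.getD_eq_getElem?_getD, List.getElem?_eq_getElem (by exact hj)]
          exact List.getElem_mem _
        have hpm : sL.getD (sEdge.getD k (0, 0)).1 0 ∈ sL := by
          rw [List.getD_eq_getElem?_getD, List.getElem?_eq_getElem (by omega)]
          exact List.getElem_mem _
        obtain ⟨g, hg'⟩ := tab_spec.2.1 _ hgm
        obtain ⟨y, hy⟩ := tab_spec.2.2.1 _ hpm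
        have : x = g * y := cd_inj (by rw [cd_mul, hg', hy, hx, he])
        rw [this]
        exact hg g y (hg' ▸ hgm) (hy ▸ hpm) (ih _ hp (by omega) y hy)
  intro x hx
  obtain ⟨n, hn, e⟩ := List.getElem_of_mem hx
  refine key n (hlen ▸ hn) x ?_
  rw [List.getD_eq_getElem?_getD, List.getElem?_eq_getElem hn]
  exact e.symm

theorem sL_mul : ∀ a ∈ sL, ∀ b ∈ sL, pmul a b ∈ sL := by
  intro a ha b hb
  obtain ⟨x, rfl⟩ := tab_spec.2.2.1 a ha
  obtain ⟨y, rfl⟩ := tab_spec.2.2.1 b hb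
  rw [← cd_mul]
  refine sL_induction (Φ := fun x => cd (x * y) ∈ sL) (by rwa [one_mul]) (fun g x hg _ h => ?_) x ha
  rw [mul_assoc, cd_mul]
  exact (s_spec.2.2 _ hg).1 _ h

/-- The Sylow subgroup. -/
def sylT : Subgroup MT := listGrp sL s_spec.1.2 sL_mul

theorem mem_sylT {x : MT} : x ∈ sylT ↔ cd x ∈ sL := Iff.rfl

theorem card_sylT : Nat.card sylT = 128 :=
  (card_listGrp sL_nodup tab_spec.2.2.1).trans s_spec.1.1

theorem sixteen_le : sixteen ≤ sylT := by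
  have h := a_ok
  simp only [aOK, Bool.and_eq_true, List.all_eq_true, memC_iff] at h
  exact fun x hx => (h.2 _ hx).1.2

theorem conj_sixteen {x : MT} (hx : x ∈ sylT) {a : MT} (ha : a ∈ sixteen) : x * a * x⁻¹ ∈ sixteen := by
  revert a
  refine sL_induction (Φ := fun x => ∀ {a : MT}, a ∈ sixteen → x * a * x⁻¹ ∈ sixteen) (fun ha => by simpa using ha)
    (fun g y hg _ h => ?_) x hx
  intro a ha
  obtain ⟨b, hb, e⟩ := (s_spec.2.2 _ hg).2 _ (mem_sixteen.1 (h ha))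
  obtain ⟨b', rfl⟩ := tab_spec.1 b hb
  rw [← cd_mul, ← cd_mul] at e
  rw [show g * y * a * (g * y)⁻¹ = g * (y * a * y⁻¹) * g⁻¹ by group, cd_inj e, mul_inv_cancel_right]
  exact hb

theorem exists_nonComm : ∃ x ∈ sylT, ∃ y ∈ sylT, x * y * x⁻¹ * y⁻¹ ∉ sixteen := by
  have h := c_ok
  simp only [cOK, Bool.and_eq_true, List.all_eq_true, memC_iff, Bool.not_eq_true'] at h
  obtain ⟨⟨x, hx⟩, y, hy⟩ := tab_spec.2.2.2.2.2.2.1
  refine ⟨x, mem_sylT.2 (hx ▸ h.1.1), y, mem_sylT.2 (hy ▸ h.1.2), fun hm => ?_⟩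
  have := Nat.ne_of_beq_eq_false (h.2 _ hm)
  rw [← hx, ← hy, ← cd_mul, ← cd_mul, ← cd_mul] at this
  exact this (congrArg cd (by group))

theorem norm_of_check {g : MT} (h : ∀ a ∈ aL, pmul (cd g) a ∈ aL.map fun b => pmul b (cd g)) {a : MT}
    (ha : a ∈ sixteen) : g * a * g⁻¹ ∈ sixteen := by
  obtain ⟨b, hb, e⟩ := List.mem_map.1 (h _ ha)
  obtain ⟨b', rfl⟩ := tab_spec.1 b hb
  rw [← cd_mul, ← cd_mul] at e
  rw [← cd_inj e, mul_inv_cancel_right]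
  exact hb

theorem n_spec : (∀ a ∈ aL, a = pone ∨ ∃ p ∈ trL, p.1 = a) ∧
    (∀ p ∈ trL, pmul p.2 aBase = pmul p.1 p.2 ∧ ∀ a ∈ aL, pmul p.2 a ∈ aL.map fun b => pmul b p.2) ∧
    (∀ g ∈ [g1c, g2c], pmul g (pmul g g) = pone ∧ g ≠ pone ∧ ∀ a ∈ aL, pmul g a ∈ aL.map fun b => pmul b g) ∧
    pmul g1c g2c = pmul g2c g1c ∧ g2c ∉ [pone, g1c, pmul g1c g1c] := by
  have h := n_ok
  simp only [nOK, Bool.and_eq_true, List.all_eq_true, memC_iff, Bool.or_eq_true, List.any_eq_true,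
    Bool.not_eq_true', Bool.eq_false_iff, ne_eq] at h
  obtain ⟨⟨⟨⟨h1, h2⟩, h3⟩, h4⟩, h5⟩ := h
  exact ⟨fun a ha => (h1 a ha).imp Nat.eq_of_beq_eq_true fun ⟨p, hp, e⟩ => ⟨p, hp, Nat.eq_of_beq_eq_true e⟩,
    fun p hp => ⟨Nat.eq_of_beq_eq_true (h2 p hp).1.2, (h2 p hp).2⟩,
    fun g hg => ⟨Nat.eq_of_beq_eq_true (h3 g hg).1.1, fun e => (h3 g hg).1.2 (by rw [e, Nat.beq_refl]), (h3 g hg).2⟩,
    Nat.eq_of_beq_eq_true h4, h5⟩

theorem inv_norm_sixteen {n : MT} (h : ∀ c ∈ sixteen, n * c * n⁻¹ ∈ sixteen) {c : MT} (hc : c ∈ sixteen) :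
    n⁻¹ * c * n ∈ sixteen := by
  obtain ⟨⟨d, hd⟩, e⟩ := ((Finite.injective_iff_surjective (f := fun c : sixteen =>
    (⟨n * c.1 * n⁻¹, h c.1 c.2⟩ : sixteen))).1
    (fun c d h => Subtype.ext (by simpa using congrArg Subtype.val h))) ⟨c, hc⟩
  have e' : n * d * n⁻¹ = c := congrArg Subtype.val e
  rw [← e', show n⁻¹ * (n * d * n⁻¹) * n = d by group]
  exact hd

theorem exists_trans {a b : MT} (ha : a ∈ sixteen) (hb : b ∈ sixteen) (ha1 : a ≠ 1) (hb1 : b ≠ 1) :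
    ∃ n : MT, (∀ c ∈ sixteen, n * c * n⁻¹ ∈ sixteen) ∧ n * a * n⁻¹ = b := by
  obtain ⟨a0, ha0⟩ := tab_spec.2.2.2.2.1
  have get : ∀ x : MT, x ∈ sixteen → x ≠ 1 →
      ∃ n : MT, (∀ c ∈ sixteen, n * c * n⁻¹ ∈ sixteen) ∧ n * a0 * n⁻¹ = x := by
    intro x hx hx1
    rcases n_spec.1 _ hx with e | ⟨p, hp, e⟩
    · exact absurd (cd_inj (e.trans cd_one.symm)) hx1
    obtain ⟨n, hn⟩ := (tab_spec.2.2.2.1 p hp).2
    obtain ⟨h1, h2⟩ := n_spec.2.1 p hp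
    refine ⟨n, fun c hc => norm_of_check (hn ▸ h2) hc, ?_⟩
    rw [← hn, ← ha0, e, ← cd_mul, ← cd_mul] at h1
    rw [cd_inj h1, mul_inv_cancel_right]
  obtain ⟨u, hu, eu⟩ := get a ha ha1
  obtain ⟨v, hv, ev⟩ := get b hb hb1
  refine ⟨v * u⁻¹, fun c hc => ?_, ?_⟩
  · rw [show v * u⁻¹ * c * (v * u⁻¹)⁻¹ = v * (u⁻¹ * c * u) * v⁻¹ by group]
    exact hv _ (inv_norm_sixteen hu hc)
  · rw [← eu, ← ev]; group

theorem exists_three : ∃ g h : MT, (∀ c ∈ sixteen, g * c * g⁻¹ ∈ sixteen) ∧ (∀ c ∈ sixteen, h * c * h⁻¹ ∈ sixteen) ∧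
    g * h = h * g ∧ g ^ 3 = 1 ∧ h ^ 3 = 1 ∧ g ≠ 1 ∧ h ≠ 1 ∧ h ≠ g ∧ h ≠ g * g := by
  obtain ⟨⟨g, hg⟩, h, hh⟩ := tab_spec.2.2.2.2.2.1
  obtain ⟨-, -, h3, h4, h5⟩ := n_spec
  obtain ⟨a1, a2, a3⟩ := h3 g1c (by simp)
  obtain ⟨b1, b2, b3⟩ := h3 g2c (by simp)
  simp only [List.mem_cons, List.not_mem_nil, or_false, not_or] at h5
  rw [← hg] at a1 a2 a3 h4 h5
  rw [← hh] at b1 b2 b3 h4 h5
  rw [← cd_mul, ← cd_mul, ← cd_one] at a1 b1
  rw [← cd_mul, ← cd_mul] at h4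
  rw [← cd_mul] at h5
  rw [← cd_one] at a2 b2 h5
  exact ⟨g, h, fun c hc => norm_of_check a3 hc, fun c hc => norm_of_check b3 hc, cd_inj h4,
    (pow_three g).trans (cd_inj a1), (pow_three h).trans (cd_inj b1), fun e => a2 (congrArg cd e),
    fun e => b2 (congrArg cd e), fun e => h5.2.1 (congrArg cd e), fun e => h5.2.2 (congrArg cd e)⟩

theorem outside {s : MT} (hs : s ∈ sylT) (hsA : s ∉ sixteen) (h2 : s * s = 1) :
    ∃ a b : MT, a ∈ sixteen ∧ b ∈ sixteen ∧ a ≠ 1 ∧ b ≠ 1 ∧ a ≠ b ∧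
      (∀ c ∈ sixteen, s * c = c * s → c = 1 ∨ c = a ∨ c = b ∨ c = a * b) ∧
      ∃ c d : MT, c * a = a * c ∧ d * b = b * d ∧ c * b * c⁻¹ ∈ sixteen ∧ d * a * d⁻¹ ∈ sixteen ∧
        ∀ K : Subgroup MT, a ∈ K → b ∈ K → c * b * c⁻¹ ∈ K → d * a * d⁻¹ ∈ K → sixteen ≤ K := by
  have h := o_ok
  simp only [oOK, List.all_eq_true, Bool.or_eq_true, List.any_eq_true, Bool.and_eq_true,
    Bool.not_eq_true', memC_iff] at h
  rcases h _ hs with (h' | h') | ⟨t, ht, ⟨-, -⟩, hall⟩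
  · exact absurd h' hsA
  · rw [← cd_mul, h2, cd_one] at h'
    exact absurd h' (by simp)
  have hd := d_ok
  simp only [dOK, List.all_eq_true, Bool.and_eq_true, Bool.not_eq_true', memC_iff] at hd
  obtain ⟨⟨⟨⟨⟨⟨⟨⟨⟨⟨⟨ma, mb⟩, mx⟩, my⟩, na⟩, nb⟩, nab⟩, e1⟩, e2⟩, e3⟩, e4⟩, hspan⟩ := hd t ht
  obtain ⟨⟨a, ea⟩, ⟨b, eb⟩, ⟨x, ex⟩, ⟨y, ey⟩, ⟨c, ec⟩, d, ed⟩ := tab_spec.2.2.2.2.2.2.2 t ht
  rw [← ea] at ma na nab e1 e4
  rw [← eb] at mb nb nab e2 e3
  rw [← ec] at e1 e3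
  rw [← ed] at e2 e4
  rw [← ex] at mx e3
  rw [← ey] at my e4
  have e1' : c * a = a * c := cd_inj (by rw [cd_mul, cd_mul]; exact Nat.eq_of_beq_eq_true e1)
  have e2' : d * b = b * d := cd_inj (by rw [cd_mul, cd_mul]; exact Nat.eq_of_beq_eq_true e2)
  have e3' : c * b = x * c := cd_inj (by rw [cd_mul, cd_mul]; exact Nat.eq_of_beq_eq_true e3)
  have e4' : d * a = y * d := cd_inj (by rw [cd_mul, cd_mul]; exact Nat.eq_of_beq_eq_true e4)
  refine ⟨a, b, ma, mb, fun e => ?_, fun e => ?_, fun e => ?_, fun k hk hsk => ?_, c, d, e1', e2', ?_, ?_,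
    fun K ka kb kx ky k hk => ?_⟩
  · rw [e, cd_one, Nat.beq_refl] at na; exact Bool.noConfusion na
  · rw [e, cd_one, Nat.beq_refl] at nb; exact Bool.noConfusion nb
  · rw [e, Nat.beq_refl] at nab; exact Bool.noConfusion nab
  · rcases hall _ hk with e | e
    · rw [← cd_mul, ← cd_mul, hsk, Nat.beq_refl] at e
      exact Bool.noConfusion e
    · simp only [List.mem_cons, List.not_mem_nil, or_false, ← ea, ← eb, ← cd_mul, ← cd_one,
        cd_inj.eq_iff] at e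
      exact e
  · rw [e3', mul_inv_cancel_right]; exact mx
  · rw [e4', mul_inv_cancel_right]; exact my
  · rw [e3', mul_inv_cancel_right] at kx
    rw [e4', mul_inv_cancel_right] at ky
    have hm := hspan _ hk
    simp only [List.mem_flatMap, List.mem_cons, List.not_mem_nil, or_false] at hm
    obtain ⟨u, hu, hk'⟩ := hm
    obtain ⟨u', eu, hu'⟩ : ∃ u' : MT, cd u' = u ∧ u' ∈ K := by
      rcases hu with e | e | e | e
      · exact ⟨1, cd_one.trans e.symm, one_mem K⟩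
      · exact ⟨a, ea.trans e.symm, ka⟩
      · exact ⟨b, eb.trans e.symm, kb⟩
      · exact ⟨a * b, by rw [cd_mul, ea, eb, e], mul_mem ka kb⟩
    simp only [← ex, ← ey, ← eu, ← cd_mul, cd_inj.eq_iff] at hk'
    rcases hk' with rfl | rfl | rfl | rfl
    · exact hu'
    · exact mul_mem kx hu'
    · exact mul_mem ky hu'
    · exact mul_mem kx (mul_mem ky hu')

end Cfsg.Agent.H66.JFour
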