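import Cfsg.Agent.H66.JFour.Inst
import Cfsg.Agent.H40.PCore
import Cfsg.Prelude.Def_JankoFourType

/-!
# The unique elementary abelian subgroup of order 2^11 in a Sylow two-subgroup
-/

set_option autoImplicit false
set_option linter.unusedSectionVars false
set_option maxHeartbeats 500000

namespace Cfsg.Agent.H66.JFour

open Cfsg

theorem extraspecial_of_equiv {A B : Type*} [Group A] [Group B] (e : A ≃* B) {p : ℕ}
    (h : Cfsg.IsExtraspecial p A) : Cfsg.IsExtraspecial p B := by
  obtain ⟨⟨hp, hfr, hcom⟩, hcard⟩ := h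
  have hcen : (Subgroup.center A).map e.toMonoidHom = Subgroup.center B := by
    ext v
    constructor
    · rintro ⟨u, hu, rfl⟩
      refine Subgroup.mem_center_iff.mpr fun w => ?_
      obtain ⟨w', rfl⟩ := e.surjective w
      exact (map_mul e _ _).symm.trans
        ((congrArg e (Subgroup.mem_center_iff.mp hu w')).trans (map_mul e _ _))
    · intro hv
      obtain ⟨u, rfl⟩ := e.surjective v
      refine ⟨u, Subgroup.mem_center_iff.mpr fun w => e.injective ?_, rfl⟩
      rw [map_mul, map_mul]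
      exact Subgroup.mem_center_iff.mp hv (e w)
  refine ⟨⟨hp.of_equiv e, ?_, ?_⟩, ?_⟩
  · rw [← hcen, ← hfr]
    apply le_antisymm
    · intro v hv
      obtain ⟨u, rfl⟩ := e.surjective v
      refine ⟨u, ?_, rfl⟩
      have := frattini_le_comap_frattini_of_surjective (φ := e.symm.toMonoidHom) e.symm.surjective hv
      have h' : e.symm (e u) ∈ frattini A := this
      rwa [e.symm_apply_apply] at h'
    · rw [Subgroup.map_le_iff_le_comap]
      exact frattini_le_comap_frattini_of_surjective (φ := e.toMonoidHom) e.surjective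
  · rw [← hcen, ← hcom, commutator_def, commutator_def, Subgroup.map_commutator,
      Subgroup.map_top_of_surjective _ e.surjective]
  · rw [← hcen, Subgroup.card_map_of_injective e.injective, hcard]

theorem ea_map_iff {A B : Type*} [Group A] [Group B] {f : A →* B} (hf : Function.Injective f) {W : Subgroup A} :
    IsElementaryAbelian 2 (W.map f) ↔ IsElementaryAbelian 2 W := by
  constructor
  · rintro ⟨⟨⟨hc⟩⟩, h2⟩
    refine ⟨⟨⟨fun a b => Subtype.ext (hf ?_)⟩⟩, fun a ha => hf ?_⟩
    · have := congrArg Subtype.val (hc ⟨_, Subgroup.mem_map_of_mem f a.2⟩ ⟨_, Subgroup.mem_map_of_mem f b.2⟩)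
      simpa using this
    · rw [map_pow, map_one]
      exact h2 _ (Subgroup.mem_map_of_mem f ha)
  · rintro ⟨⟨⟨hc⟩⟩, h2⟩
    refine ⟨⟨⟨?_⟩⟩, ?_⟩
    · rintro ⟨_, a, ha, rfl⟩ ⟨_, b, hb, rfl⟩
      refine Subtype.ext ?_
      show f a * f b = f b * f a
      rw [← map_mul, ← map_mul]
      exact congrArg f (congrArg Subtype.val (hc ⟨a, ha⟩ ⟨b, hb⟩))
    · rintro _ ⟨a, ha, rfl⟩
      rw [← map_pow, h2 a ha, map_one]

variable {G : Type*} [Group G] [Finite G]

/-- The central involution with its core, the element of order three and the extension. -/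
theorem exists_setting {z : G} {P : Subgroup G} (hJ : IsOfJankoFourTypeWith z P) :
    ∃ (e : Subgroup.centralizer ({z} : Set G)) (D : Ext (GaloisField 2 2) (Subgroup.centralizer ({z} : Set G))),
      (e : G) = z ∧ D.Q = pCore 2 (Subgroup.centralizer ({z} : Set G)) ∧
        Core (pCore 2 (Subgroup.centralizer ({z} : Set G))) e := by
  classical
  obtain ⟨hz, hext, hcard, hself, ⟨N, hEN, hNH, hHN, hNc, ⟨hNn, ⟨iso⟩⟩, hPN⟩, hP, hCE, hNP, hPC⟩ := hJ
  set C := Subgroup.centralizer ({z} : Set G) with hC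
  set Q := pCore 2 C with hQ
  have : Q.Normal := H40.pCore_normal' 2 C
  have hzz : z * z = 1 := by rw [← pow_two, ← hz, pow_orderOf_eq_one]
  have hzC : z ∈ C := Subgroup.mem_centralizer_singleton_iff.2 rfl
  let e : C := ⟨z, hzC⟩
  have hcomm : ∀ c : C, c * e = e * c := fun c => Subtype.ext (Subgroup.mem_centralizer_singleton_iff.1 c.2)
  have hself' : ∀ c : C, (∀ q ∈ Q, q * c = c * q) → c ∈ Q := fun c hc => by
    have hm : (c : G) ∈ twoCoreOfCentralizer z := hself ⟨c.2, Subgroup.mem_centralizer_iff.2 fun q hq => by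
      obtain ⟨q', hq', rfl⟩ := hq
      exact congrArg Subtype.val (hc q' hq')⟩
    obtain ⟨y, hy, e'⟩ := hm
    rwa [← show y = c from Subtype.ext e']
  have hs : Core Q e := by
    refine ⟨inferInstance, ?_, ?_, hself' e fun q _ => hcomm q, fun h => ?_, Subtype.ext hzz, hcomm, hself'⟩
    · exact extraspecial_of_equiv (Q.equivMapOfInjective _ C.subtype_injective).symm hext
    · rw [← hcard]
      exact (Subgroup.card_map_of_injective C.subtype_injective).symm
    · rw [show z = 1 from congrArg Subtype.val h, orderOf_one] at hz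
      omega
  have : Fact (Nat.Prime 3) := ⟨Nat.prime_three⟩
  have : IsCyclic P := isCyclic_of_prime_card hP
  obtain ⟨⟨p0, hp0⟩, hgen⟩ := IsCyclic.exists_generator (α := P)
  let p : C := ⟨p0, hNH (hPN hp0)⟩
  have hPz : ∀ y ∈ P, y ∈ Subgroup.zpowers p0 := fun y hy => by
    obtain ⟨n, hn⟩ := Subgroup.mem_zpowers_iff.1 (hgen ⟨y, hy⟩)
    exact Subgroup.mem_zpowers_iff.2 ⟨n, congrArg Subtype.val hn⟩
  have hp03 : p0 ^ 3 = 1 := by
    have := pow_card_eq_one' (x := (⟨p0, hp0⟩ : P))
    rw [hP] at this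
    exact congrArg Subtype.val this
  have hp01 : p0 ≠ 1 := fun h => by
    have : Subgroup.zpowers p0 = P := le_antisymm (Subgroup.zpowers_le.2 hp0) hPz
    rw [← this, h, Subgroup.zpowers_one_eq_bot, Subgroup.card_bot] at hP
    omega
  have hcen : ∀ y : G, y * p0 = p0 * y → y ∈ Subgroup.centralizer (P : Set G) := fun y hy =>
    Subgroup.mem_centralizer_iff.2 fun w hw => by
      obtain ⟨n, rfl⟩ := hPz w hw
      exact (Commute.zpow_left (show Commute p0 y from hy.symm) n).eq
  have hfix : ∀ a ∈ Q, a * p = p * a → a = 1 ∨ a = e := by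
    intro a ha hap
    have hm : (a : G) ∈ twoCoreOfCentralizer z ⊓ Subgroup.centralizer (P : Set G) :=
      ⟨⟨a, ha, rfl⟩, hcen _ (congrArg Subtype.val hap)⟩
    rw [hCE, H18.mem_zpowers_iff_pair hzz] at hm
    exact hm.imp (fun h => Subtype.ext h) fun h => Subtype.ext h
  have : (N.subgroupOf C).Normal := hNn
  have hQN : Q ≤ N.subgroupOf C := fun q hq => hEN ⟨q, hq, rfl⟩
  have hN : Nat.card (N.subgroupOf C) = 3 * 2 ^ 13 := by
    rw [Nat.card_congr (Subgroup.subgroupOfEquivOfLe hNH).toEquiv, hNc, hcard]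
  obtain ⟨g0, hg0⟩ : ∃ g0 : C, g0 * p * g0⁻¹ = p * p := by
    by_contra hcon
    push Not at hcon
    refine hNP (le_antisymm (fun g hg => ⟨hg.1, hcen g ?_⟩)
      (inf_le_inf_left _ (Subgroup.centralizer_le_normalizer (P : Set G))))
    have hm : g * p0 * g⁻¹ ∈ Subgroup.zpowers p0 :=
      hPz _ ((Subgroup.mem_normalizer_iff.1 hg.2 p0).1 hp0)
    obtain ⟨n, hn⟩ := Subgroup.mem_zpowers_iff.1 hm
    have h3 : p0 ^ (3 : ℤ) = 1 := by rw [show (3 : ℤ) = ((3 : ℕ) : ℤ) from rfl, zpow_natCast, hp03]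
    have e' : p0 ^ n = p0 ^ (n % 3) := by
      conv_lhs => rw [← Int.emod_add_mul_ediv n 3, zpow_add, zpow_mul, h3, one_zpow, mul_one]
    have h0 := Int.emod_nonneg n (by norm_num : (3 : ℤ) ≠ 0)
    have h1 := Int.emod_lt_of_pos n (by norm_num : (0 : ℤ) < 3)
    rw [e'] at hn
    rcases (by omega : n % 3 = 0 ∨ n % 3 = 1 ∨ n % 3 = 2) with h | h | h <;> rw [h] at hn
    · rw [zpow_zero] at hn
      exact absurd (conj_eq_one_iff.1 hn.symm) hp01
    · rw [zpow_one] at hn
      exact mul_inv_eq_iff_eq_mul.1 hn.symm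
    · rw [zpow_two] at hn
      exact absurd (Subtype.ext hn.symm) (hcon ⟨g, hg.1⟩)
  have hcp : p ∈ ⁅Subgroup.centralizer ({p} : Set C), Subgroup.centralizer ({p} : Set C)⁆ := by
    have hle : C ⊓ Subgroup.centralizer (P : Set G) ≤ (Subgroup.centralizer ({p} : Set C)).map C.subtype := by
      rintro y ⟨hy, hy'⟩
      refine ⟨⟨y, hy⟩, Subgroup.mem_centralizer_singleton_iff.2 (Subtype.ext ?_), rfl⟩
      exact (Subgroup.mem_centralizer_iff.1 hy' p0 hp0).symm
    have h := Subgroup.commutator_mono hle hle (hPC hp0)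
    rw [← Subgroup.map_commutator] at h
    obtain ⟨y, hy, e'⟩ := h
    rw [show y = p from Subtype.ext e'] at hy
    exact hy
  obtain ⟨D, hD, -⟩ := exists_ext hs (p := p) (Subtype.ext hp03) (fun h => hp01 (congrArg Subtype.val h)) hfix hQN hN
    (show p ∈ N.subgroupOf C from hPN hp0) iso hg0 hcp
  exact ⟨e, D, rfl, hD, hs⟩

/-- A Sylow two-subgroup of the centraliser is one of the whole group. -/
theorem sylow_eq {z : G} {e : Subgroup.centralizer ({z} : Set G)} (he : (e : G) = z)
    (hs : Core (pCore 2 (Subgroup.centralizer ({z} : Set G))) e)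
    (S : Sylow 2 (Subgroup.centralizer ({z} : Set G))) :
    ∃ T : Sylow 2 G, (T : Subgroup G) = (S : Subgroup (Subgroup.centralizer ({z} : Set G))).map
      (Subgroup.centralizer ({z} : Set G)).subtype := by
  classical
  have : Fact (Nat.Prime 2) := ⟨Nat.prime_two⟩
  have hQS : pCore 2 (Subgroup.centralizer ({z} : Set G)) ≤ S := by
    have := H40.pCore_normal' 2 (Subgroup.centralizer ({z} : Set G))
    exact (H40.isPGroup_pCore 2 (Subgroup.centralizer ({z} : Set G))).le_sylow_of_normal S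
  obtain ⟨T, hT⟩ := (S.isPGroup'.map (Subgroup.centralizer ({z} : Set G)).subtype).exists_le_sylow
  refine ⟨T, le_antisymm ?_ hT⟩
  by_contra hnot
  have hlt : ((S : Subgroup (Subgroup.centralizer ({z} : Set G))).map (Subgroup.centralizer ({z} : Set G)).subtype).subgroupOf (T : Subgroup G) < ⊤ := by
    refine lt_top_iff_ne_top.2 fun h => hnot fun x hx => ?_
    have : (⟨x, hx⟩ : (T : Subgroup G)) ∈ ((S : Subgroup (Subgroup.centralizer ({z} : Set G))).map (Subgroup.centralizer ({z} : Set G)).subtype).subgroupOf (T : Subgroup G) := by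
      rw [h]; trivial
    exact this
  have : Group.IsNilpotent (T : Subgroup G) := T.isPGroup'.isNilpotent
  obtain ⟨g, hg, hgn⟩ := SetLike.exists_of_lt (normalizerCondition_of_isNilpotent _ hlt)
  rw [Subgroup.mem_normalizer_iff] at hg
  have hzS : z ∈ (S : Subgroup (Subgroup.centralizer ({z} : Set G))).map (Subgroup.centralizer ({z} : Set G)).subtype := ⟨e, hQS hs.mem, he⟩
  have hgz : (g : G) * z * (g : G)⁻¹ = z := by
    have hm : (g : G) * z * (g : G)⁻¹ ∈ (S : Subgroup (Subgroup.centralizer ({z} : Set G))).map (Subgroup.centralizer ({z} : Set G)).subtype :=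
      (hg ⟨z, hT hzS⟩).1 hzS
    obtain ⟨w, hw, hwe⟩ := hm
    have hwc : ∀ q ∈ (S : Subgroup (Subgroup.centralizer ({z} : Set G))), q * w = w * q := by
      intro q hq
      have hq' : (g : G)⁻¹ * q * g ∈ (S : Subgroup (Subgroup.centralizer ({z} : Set G))).map (Subgroup.centralizer ({z} : Set G)).subtype := by
        refine (hg ⟨_, mul_mem (mul_mem (inv_mem g.2) (hT ⟨q, hq, rfl⟩)) g.2⟩).2 ?_
        show (g : G) * ((g : G)⁻¹ * q * g) * (g : G)⁻¹ ∈ (S : Subgroup (Subgroup.centralizer ({z} : Set G))).map (Subgroup.centralizer ({z} : Set G)).subtype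
        rw [show (g : G) * ((g : G)⁻¹ * q * g) * (g : G)⁻¹ = q by group]
        exact ⟨q, hq, rfl⟩
      obtain ⟨r, hr, hre⟩ := hq'
      have hzr : (g : G)⁻¹ * q * g * z = z * ((g : G)⁻¹ * q * g) := by
        rw [← hre]; exact Subgroup.mem_centralizer_singleton_iff.1 r.2
      refine Subtype.ext ?_
      show (q : G) * (w : G) = (w : G) * q
      rw [show (w : G) = (g : G) * z * (g : G)⁻¹ from hwe]
      calc (q : G) * ((g : G) * z * (g : G)⁻¹) = (g : G) * (((g : G)⁻¹ * q * g) * z) * (g : G)⁻¹ := by group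
        _ = (g : G) * (z * ((g : G)⁻¹ * q * g)) * (g : G)⁻¹ := by rw [hzr]
        _ = (g : G) * z * (g : G)⁻¹ * q := by group
    have : (pCore 2 (Subgroup.centralizer ({z} : Set G))).Normal := hs.nrm
    have hwQ : w ∈ pCore 2 (Subgroup.centralizer ({z} : Set G)) := hs.self w fun q hq => hwc q (hQS hq)
    rcases (hs.central_iff ⟨w, hwQ⟩).1 (Subgroup.mem_center_iff.2 fun q => Subtype.ext (hwc q.1 (hQS q.2))) with h | h
    · exfalso
      have h1 : w = 1 := h
      rw [h1] at hwe
      exact hs.ne (Subtype.ext (he.trans (conj_eq_one_iff.1 hwe.symm)))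
    · have h1 : w = e := h
      rw [← hwe, h1]; exact he
  have hgC : (g : G) ∈ (Subgroup.centralizer ({z} : Set G)) := Subgroup.mem_centralizer_singleton_iff.2 (mul_inv_eq_iff_eq_mul.1 hgz)
  have hle : (S : Subgroup (Subgroup.centralizer ({z} : Set G))) ≤ (T : Subgroup G).subgroupOf (Subgroup.centralizer ({z} : Set G)) := fun s hs' => hT ⟨s, hs', rfl⟩
  have hp : IsPGroup 2 ((T : Subgroup G).subgroupOf (Subgroup.centralizer ({z} : Set G))) :=
    T.isPGroup'.comap_of_injective (Subgroup.centralizer ({z} : Set G)).subtype (Subgroup.centralizer ({z} : Set G)).subtype_injective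
  have heq := S.is_maximal' hp hle
  refine hgn ?_
  have : (⟨g, hgC⟩ : (Subgroup.centralizer ({z} : Set G))) ∈ (S : Subgroup (Subgroup.centralizer ({z} : Set G))) := heq ▸ (show (⟨g, hgC⟩ : (Subgroup.centralizer ({z} : Set G))) ∈ (T : Subgroup G).subgroupOf (Subgroup.centralizer ({z} : Set G)) from g.2)
  exact ⟨_, this, rfl⟩

/-- The main result. -/
theorem exists_unique_large {z : G} {P : Subgroup G} (hJ : IsOfJankoFourTypeWith z P) (T : Sylow 2 G) :
    ∃! V : Subgroup G, V ≤ (T : Subgroup G) ∧ IsElementaryAbelian 2 V ∧ Nat.card V = 2 ^ 11 := by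
  classical
  have : Fact (Nat.Prime 2) := ⟨Nat.prime_two⟩
  obtain ⟨e, D, he, -, hs⟩ := exists_setting hJ
  obtain ⟨S⟩ := (inferInstance : Nonempty (Sylow 2 (Subgroup.centralizer ({z} : Set G))))
  obtain ⟨T0, hT0⟩ := sylow_eq he hs S
  obtain ⟨A, hA, hcard, -, -⟩ := D.sylow_unique_max S
  obtain ⟨g, hg⟩ := MulAction.exists_smul_eq G T0 T
  set f := ((MulAut.conj g).toMonoidHom.comp (Subgroup.centralizer ({z} : Set G)).subtype).comp (S : Subgroup (Subgroup.centralizer ({z} : Set G))).subtype with hf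
  have hfi : Function.Injective f :=
    ((MulAut.conj g).injective.comp (Subgroup.centralizer ({z} : Set G)).subtype_injective).comp (S : Subgroup (Subgroup.centralizer ({z} : Set G))).subtype_injective
  have hfr : f.range = (T : Subgroup G) := by
    have e' : (T : Subgroup G) = (T0 : Subgroup G).map (MulAut.conj g).toMonoidHom := by rw [← hg]; rfl
    rw [hf, MonoidHom.range_comp, Subgroup.range_subtype, ← Subgroup.map_map, ← hT0, e']
  have hmax : A ∈ maxElementaryAbelianSubgroups 2 ↥(S : Subgroup (Subgroup.centralizer ({z} : Set G))) := by rw [hA]; rfl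
  refine ⟨A.map f, ⟨hfr ▸ Subgroup.map_le_range f A, (ea_map_iff hfi).2 hmax.1,
    by rw [Subgroup.card_map_of_injective hfi, hcard]⟩, ?_⟩
  rintro V ⟨hV, hVel, hVc⟩
  have hVmap : (V.comap f).map f = V := Subgroup.map_comap_eq_self (hfr ▸ hV)
  have hWmem : V.comap f ∈ maxElementaryAbelianSubgroups 2 ↥(S : Subgroup (Subgroup.centralizer ({z} : Set G))) := by
    refine ⟨(ea_map_iff hfi).1 (by rw [hVmap]; exact hVel), fun B hB => ?_⟩
    have h1 := hmax.2 B hB
    rwa [← show Nat.card ↥((V.comap f).map f) = Nat.card ↥(V.comap f) from Subgroup.card_map_of_injective hfi, hVmap, hVc, ← hcard]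
  rw [hA, Set.mem_singleton_iff] at hWmem
  rw [← hVmap, hWmem]

end Cfsg.Agent.H66.JFour
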